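import Cfsg.Agent.FTh.Split

/-!
# The conjugates of `d` in the Thompson subgroup
-/

set_option autoImplicit false
set_option linter.unusedSectionVars false
set_option linter.unusedSimpArgs false

namespace Cfsg.Agent.FTh

open Cfsg.Agent.ThreeTransp Cfsg.Agent.Fi22 Cfsg.Agent.FiF4 Cfsg.Agent.UDbl

variable {G : Type*} [Group G] [Finite G] {d : G} {P : Type*} [Group P] [Finite P] {E : Set P} {φ : CC d →* P}
variable (D : DC φ (UTh.zC d)) (hE : H22 E) {f : ℕ → ℕ} (N : Num φ E f)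

include D hE N

theorem rank_cases' {E0 : Set P} (h0 : Max E E0) {x : CC d} (hx : x ∈ AA φ E0) : ∃ m ≤ 3, RR E m (φ x) := by
  have := rk_spec hE h0 hx
  exact ⟨_, this.2, this.1⟩

theorem f_le_cases (m : ℕ) : f m = 0 ∨ f m = 1 ∨ f m = 2 := by
  have := N.le m
  omega

theorem zrank {m : ℕ} {x : CC d} (h : RR E m (φ x)) : RR E m (φ (x * UTh.zC d)) := by
  rwa [map_mul, D.phz, mul_one]

/-- not the case of the split cover -/
theorem not_1024 (hperf : commutator (CC d) = ⊤) : ¬ (f 1 = 1 ∧ f 2 = 1 ∧ f 3 = 1) := by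
  rintro ⟨h1, h2, h3⟩
  have S := sys D hE
  have hf1 : ∀ m ≤ 3, f m = 1 := by
    intro m hm
    interval_cases m
    · exact N.zero
    · exact h1
    · exact h2
    · exact h3
  have hk2 : ∀ E0, Max E E0 → ∀ x ∈ AA φ E0, (Q d x ↔ ¬ Q d (x * UTh.zC d)) := by
    intro E0 h0 x hx
    obtain ⟨m, hm, hr⟩ := rank_cases' D hE N h0 hx
    exact (N.nn m hm x hr).2.2 (hf1 m hm)
  have kg : Good φ (UTh.zC d) E (fun x => ¬ Q d x) := by
    refine ⟨?_, ?_, ?_⟩
    · intro x y hx hxy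
      apply hx
      have h4 := Q_conj _ y⁻¹ hxy
      have e : y⁻¹ * (y * x * y⁻¹) * y⁻¹⁻¹ = x := by group
      rwa [e] at h4
    · intro E0 h0 x hx
      have := hk2 E0 h0 x hx
      tauto
    · intro E0 h0 x hx y hy kx ky hxy
      have hA : AA φ E0 ∈ FF φ E := ⟨E0, h0, rfl⟩
      refine sub_a' S hA ?_ (x := (x : G)) (y := (y : G)) ⟨x, hx, rfl⟩ ⟨y, hy, rfl⟩ kx ky hxy
      rintro _ ⟨a, ha, rfl⟩
      have h4 := hk2 E0 h0 a ha
      by_cases h5 : Q d a
      · exact Or.inl h5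
      · right
        have h6 : Q d (a * UTh.zC d) := by
          by_contra h7
          exact h5 (h4.2 h7)
        exact h6
  exact not_perfect_of_K D hE kg hperf

theorem dvd_a {E0 : Set P} (h0 : Max E E0) (h : f 1 ≠ 0 ∧ f 2 ≠ 0 ∧ f 3 ≠ 0) : 2 ^ 11 - mu (AA φ E0) ∣ 2 ^ 11 := by
  obtain ⟨h1, h2, h3⟩ := h
  refine dvd_of_sub_a' (sys D hE) (A := AA φ E0) ⟨E0, h0, rfl⟩ ?_
  rintro _ ⟨x, hx, rfl⟩
  obtain ⟨m, hm, hr⟩ := rank_cases' D hE N h0 hx
  obtain ⟨n0, n2, n1⟩ := N.nn m hm x hr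
  have h4 : f m ≠ 0 := by
    interval_cases m
    · rw [N.zero]; exact one_ne_zero
    · exact h1
    · exact h2
    · exact h3
  rcases f_le_cases D hE N m with h5 | h5 | h5
  · exact absurd h5 h4
  · by_cases h6 : Q d x
    · exact Or.inl h6
    · right
      have h7 : Q d (x * UTh.zC d) := by
        by_contra h8
        exact h6 ((n1 h5).2 h8)
      exact h7
  · exact Or.inl (n2 h5)

theorem dvd_b {E0 : Set P} (h0 : Max E E0) (h : f 1 ≠ 1 ∧ f 2 ≠ 1 ∧ f 3 ≠ 1) : mu (AA φ E0) + 1 ∣ 2 ^ 11 := by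
  obtain ⟨h1, h2, h3⟩ := h
  have S := sys D hE
  refine dvd_of_sub_b' S (A := AA φ E0) ⟨E0, h0, rfl⟩ ?_
  rintro _ ⟨x, hx, rfl⟩ hxd hdx
  obtain ⟨m, hm, hr⟩ := rank_cases' D hE N h0 hx
  obtain ⟨n0, n2, n1⟩ := N.nn m hm x hr
  have hq : Q d x := hdx
  have h4 : f m ≠ 0 := fun h => n0 h hq
  have h5 : f m ≠ 1 := by
    interval_cases m
    · exfalso
      rcases D.ker x (rr_zero.1 hr) with rfl | rfl
      · exact S.ne (isConj_one_left.1 hq)
      · exact hxd rfl
    · exact h1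
    · exact h2
    · exact h3
  rcases f_le_cases D hE N m with h6 | h6 | h6
  · exact absurd h6 h4
  · exact absurd h6 h5
  · have h7 : Q d (x * UTh.zC d) := (N.nn m hm _ (zrank D hE N hr)).2.1 h6
    exact h7

theorem f_values {E0 : Set P} (h0 : Max E E0)
    (hnwc : ∃ g : G, g * d * g⁻¹ ∈ Subgroup.centralizer ({d} : Set G) ∧ g * d * g⁻¹ ≠ d)
    (hperf : commutator (CC d) = ⊤) : mu (AA φ E0) = 23 := by
  have S := sys D hE
  have hA : AA φ E0 ∈ FF φ E := ⟨E0, h0, rfl⟩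
  have hfm := N.cnt E0 h0
  have h2m := two_le_mu S hA hnwc
  have hle := mu_le S hA
  have h1024 := not_1024 D hE N hperf
  have hA1 := dvd_a D hE N h0
  have hA2 := dvd_b D hE N h0
  have h254 : ¬ (f 1 = 1 ∧ f 2 = 1 ∧ f 3 = 0) := fun h => not_254 D hE N h0 h.1 h.2.1 h.2.2
  have h276 : ¬ (f 1 = 2 ∧ f 2 = 1 ∧ f 3 = 0) := fun h => not_276 D hE N h0 h.1 h.2.1 h.2.2
  have p29 := no_prime' S hA (p := 29) (by norm_num) (by norm_num) (by decide)
  have p97 := no_prime' S hA (p := 97) (by norm_num) (by norm_num) (by decide)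
  have p257 := no_prime' S hA (p := 257) (by norm_num) (by norm_num) (by decide)
  have p13 := no_prime' S hA (p := 13) (by norm_num) (by norm_num) (by decide)
  have p163 := no_prime' S hA (p := 163) (by norm_num) (by norm_num) (by decide)
  have p167 := no_prime' S hA (p := 167) (by norm_num) (by norm_num) (by decide)
  have p137 := no_prime' S hA (p := 137) (by norm_num) (by norm_num) (by decide)
  have p521 := no_prime' S hA (p := 521) (by norm_num) (by norm_num) (by decide)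
  have p443 := no_prime' S hA (p := 443) (by norm_num) (by norm_num) (by decide)
  have h1 := N.le 1
  have h2 := N.le 2
  have h3 := N.le 3
  obtain ⟨a, ha⟩ : ∃ a, a = f 1 := ⟨_, rfl⟩
  obtain ⟨b, hb⟩ : ∃ b, b = f 2 := ⟨_, rfl⟩
  obtain ⟨c, hc⟩ : ∃ c, c = f 3 := ⟨_, rfl⟩
  rw [← ha, ← hb, ← hc] at hfm h1024 hA1 hA2 h254 h276
  rw [← ha] at h1
  rw [← hb] at h2
  rw [← hc] at h3
  rw [hfm] at hA1 hA2 p29 p97 p257 p13 p163 p167 p137 p521 p443 h2m hle ⊢
  clear hfm S hA N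
  interval_cases a <;> interval_cases b <;> interval_cases c <;>
    first
    | rfl
    | (exfalso; revert h2m hle h1024 hA1 hA2 h254 h276 p29 p97 p257 p13 p163 p167 p137 p521 p443; decide)

end Cfsg.Agent.FTh
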