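import Cfsg.Agent.FTh.Max

/-!
# The number of elements of each rank
-/

set_option autoImplicit false
set_option linter.unusedSectionVars false
set_option linter.unusedSimpArgs false

namespace Cfsg.Agent.FTh

open Cfsg.Agent.ThreeTransp Cfsg.Agent.Fi22 Cfsg.Agent.FiF4 Cfsg.Agent.UDbl

section plain

variable {P : Type*} [Group P] [Finite P] {E : Set P}

/-- products of `m` commuting members -/
def RR (E : Set P) (m : ℕ) (e : P) : Prop := ∃ l, IsFact E m e l

theorem rr_unique (hE : H22 E) {m m' : ℕ} (hm : m ≤ 3) (hm' : m' ≤ 3) {e : P} (h : RR E m e) (h' : RR E m' e) :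
    m = m' := by
  obtain ⟨l, hl⟩ := h
  obtain ⟨l', hl'⟩ := h'
  exact fact_len_eq hE.cls.1 (noRel22 hE) (k := 3) (by norm_num) (by norm_num) hm hm' hl hl'

theorem rr_zero {e : P} : RR E 0 e ↔ e = 1 := by
  constructor
  · rintro ⟨l, h1, h2, h3, h4, h5⟩
    have : l = [] := List.length_eq_zero_iff.1 h2
    rw [← h5, this]
    rfl
  · rintro rfl
    exact ⟨[], List.nodup_nil, rfl, by simp, by simp, rfl⟩

theorem rr_one {e : P} : RR E 1 e ↔ e ∈ E := by
  constructor
  · rintro ⟨l, hl⟩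
    have hlen := hl.2.1
    rcases fact_cases (by norm_num) hl with ⟨rfl, rfl⟩ | ⟨a, rfl, rfl⟩ | ⟨a, b, rfl, rfl⟩ | ⟨a, b, c, rfl, rfl⟩
    · simp at hlen
    · exact hl.2.2.1 e (by simp)
    · simp at hlen
    · simp at hlen
  · intro he
    refine ⟨[e], by simp, rfl, by simpa using he, ?_, by simp⟩
    intro a ha b hb
    rw [List.mem_singleton] at ha hb
    rw [ha, hb]

theorem rr_two {e : P} : RR E 2 e ↔ ∃ a ∈ E, ∃ b ∈ E, a ≠ b ∧ Commute a b ∧ e = a * b := by
  constructor
  · rintro ⟨l, hl⟩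
    have hlen := hl.2.1
    rcases fact_cases (by norm_num) hl with ⟨rfl, rfl⟩ | ⟨a, rfl, rfl⟩ | ⟨a, b, rfl, rfl⟩ | ⟨a, b, c, rfl, rfl⟩
    · simp at hlen
    · simp at hlen
    · refine ⟨a, hl.2.2.1 a (by simp), b, hl.2.2.1 b (by simp), ?_, hl.2.2.2.1 a (by simp) b (by simp), rfl⟩
      simpa using hl.1
    · simp at hlen
  · rintro ⟨a, ha, b, hb, hab, hc, rfl⟩
    refine ⟨[a, b], by simpa using hab, rfl, ?_, ?_, by simp⟩
    · intro x hx
      rw [List.mem_cons, List.mem_singleton] at hx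
      rcases hx with rfl | rfl
      · exact ha
      · exact hb
    · intro x hx y hy
      rw [List.mem_cons, List.mem_singleton] at hx hy
      rcases hx with rfl | rfl <;> rcases hy with rfl | rfl
      · exact Commute.refl _
      · exact hc
      · exact hc.symm
      · exact Commute.refl _

theorem rr_three {e : P} : RR E 3 e ↔ ∃ a ∈ E, ∃ b ∈ E, ∃ c ∈ E, a ≠ b ∧ a ≠ c ∧ b ≠ c ∧ Commute a b ∧
    Commute a c ∧ Commute b c ∧ e = a * b * c := by
  constructor
  · rintro ⟨l, hl⟩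
    have hlen := hl.2.1
    rcases fact_cases (by norm_num) hl with ⟨rfl, rfl⟩ | ⟨a, rfl, rfl⟩ | ⟨a, b, rfl, rfl⟩ | ⟨a, b, c, rfl, rfl⟩
    · simp at hlen
    · simp at hlen
    · simp at hlen
    · have hn := hl.1
      simp only [List.nodup_cons, List.mem_cons, List.not_mem_nil, or_false, not_or, List.nodup_nil, and_true,
        not_false_eq_true] at hn
      exact ⟨a, hl.2.2.1 a (by simp), b, hl.2.2.1 b (by simp), c, hl.2.2.1 c (by simp), hn.1.1, hn.1.2, hn.2,
        hl.2.2.2.1 a (by simp) b (by simp), hl.2.2.2.1 a (by simp) c (by simp),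
        hl.2.2.2.1 b (by simp) c (by simp), rfl⟩
  · rintro ⟨a, ha, b, hb, c, hc, hab, hac, hbc, k1, k2, k3, rfl⟩
    refine ⟨[a, b, c], ?_, rfl, ?_, ?_, by simp [mul_assoc]⟩
    · simp only [List.nodup_cons, List.mem_cons, List.not_mem_nil, or_false, not_or, List.nodup_nil, and_true,
        not_false_eq_true]
      exact ⟨⟨hab, hac⟩, hbc⟩
    · intro x hx
      simp only [List.mem_cons, List.not_mem_nil, or_false] at hx
      rcases hx with rfl | rfl | rfl
      · exact ha
      · exact hb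
      · exact hc
    · intro x hx y hy
      simp only [List.mem_cons, List.not_mem_nil, or_false] at hx hy
      rcases hx with rfl | rfl | rfl <;> rcases hy with rfl | rfl | rfl
      · exact Commute.refl _
      · exact k1
      · exact k2
      · exact k1.symm
      · exact Commute.refl _
      · exact k3
      · exact k2.symm
      · exact k3.symm
      · exact Commute.refl _

open Classical in
/-- the rank -/
noncomputable def rk (E : Set P) (e : P) : ℕ := if h : ∃ m, m ≤ 3 ∧ RR E m e then h.choose else 4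

theorem rk_eq (hE : H22 E) {m : ℕ} (hm : m ≤ 3) {e : P} (h : RR E m e) : rk E e = m := by
  have h1 : ∃ m, m ≤ 3 ∧ RR E m e := ⟨m, hm, h⟩
  rw [rk, dif_pos h1]
  exact rr_unique hE h1.choose_spec.1 hm h1.choose_spec.2 h

variable (hE : H22 E) {E0 : Set P} (h0 : Max E E0)

include hE h0

theorem rk_spec {e : P} (he : e ∈ Subgroup.closure E0) : RR E (rk E e) e ∧ rk E e ≤ 3 := by
  obtain ⟨m, hm, l, hl, -⟩ := exists_fact_of_mem hE h0.sub h0.comm (Max.ncard hE h0) (Max.card_closure hE h0).le he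
  rw [rk_eq hE hm ⟨l, hl⟩]
  exact ⟨⟨l, hl⟩, hm⟩

/-- the elements -/
theorem rk_mem {e : P} (he : e ∈ Subgroup.closure E0) : ∃ l, IsFact E (rk E e) e l ∧ ∀ a ∈ l, a ∈ E0 := by
  obtain ⟨m, hm, l, hl, hlE⟩ := exists_fact_of_mem hE h0.sub h0.comm (Max.ncard hE h0) (Max.card_closure hE h0).le he
  rw [rk_eq hE hm ⟨l, hl⟩]
  exact ⟨l, hl, hlE⟩

omit hE h0 in
/-- the elements of the closure -/
noncomputable def JF (E0 : Set P) : Finset P := (Set.toFinite (Subgroup.closure E0 : Set P)).toFinset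

omit hE h0 in
theorem mem_JF {e : P} : e ∈ JF E0 ↔ e ∈ Subgroup.closure E0 := by
  rw [JF, Set.Finite.mem_toFinset, SetLike.mem_coe]

theorem card_JF : (JF E0).card = 1024 := by
  have h1 : (JF E0).card = (Subgroup.closure E0 : Set P).ncard := (Set.ncard_eq_toFinset_card _ _).symm
  rw [h1]
  have h2 := Max.card_closure hE h0
  have h3 : (Subgroup.closure E0 : Set P).ncard = Nat.card (Subgroup.closure E0) := rfl
  rw [h3, h2]
  norm_num

open Classical in
theorem cnt0 : ((JF E0).filter fun e => rk E e = 0).card = 1 := by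
  rw [Finset.card_eq_one]
  refine ⟨1, ?_⟩
  ext e
  rw [Finset.mem_filter, mem_JF, Finset.mem_singleton]
  constructor
  · rintro ⟨he, hr⟩
    have h1 := (rk_spec hE h0 he).1
    rw [hr] at h1
    exact rr_zero.1 h1
  · rintro rfl
    exact ⟨one_mem _, rk_eq hE (by norm_num) (rr_zero.2 rfl)⟩

open Classical in
theorem cnt1 : ((JF E0).filter fun e => rk E e = 1).card = 22 := by
  rw [← Max.ncard hE h0, ← Set.ncard_coe_finset]
  congr 1
  ext e
  rw [Finset.mem_coe, Finset.mem_filter, mem_JF]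
  constructor
  · rintro ⟨he, hr⟩
    obtain ⟨l, hl, hlE⟩ := rk_mem hE h0 he
    rw [hr] at hl
    have hlen := hl.2.1
    rcases fact_cases (by norm_num) hl with ⟨rfl, rfl⟩ | ⟨a, rfl, rfl⟩ | ⟨a, b, rfl, rfl⟩ | ⟨a, b, c, rfl, rfl⟩
    · simp at hlen
    · exact hlE e (by simp)
    · simp at hlen
    · simp at hlen
  · intro he
    exact ⟨Subgroup.subset_closure he, rk_eq hE (by norm_num) (rr_one.2 (h0.sub he))⟩

open Classical in
theorem cnt2 : ((JF E0).filter fun e => rk E e = 2).card = 231 := by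
  obtain ⟨Ef, hEf⟩ : ∃ Ef : Finset P, Ef = (Set.toFinite E0).toFinset := ⟨_, rfl⟩
  have hmem : ∀ x, x ∈ Ef ↔ x ∈ E0 := by intro x; simp [hEf]
  have hcard : Ef.card = 22 := by
    rw [← Max.ncard hE h0, ← Set.ncard_coe_finset]
    congr 1
    ext x; rw [Finset.mem_coe, hmem]
  have hsub : ∀ {s : Finset P}, s ∈ Ef.powersetCard 2 → (s : Set P) ⊆ E0 ∧ s.card = 2 := by
    intro s hs
    rw [Finset.mem_powersetCard] at hs
    exact ⟨fun x hx => (hmem x).1 (hs.1 hx), hs.2⟩
  have c2 : ((Ef.powersetCard 2).image FiF4.pr).card = 231 := by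
    rw [Finset.card_image_of_injOn, Finset.card_powersetCard, hcard]; · rfl
    intro s hs s' hs' heq
    exact pr_injOn_two hE h0.sub h0.comm (hsub hs).1 (hsub hs').1 (hsub hs).2 (hsub hs').2 heq
  rw [← c2]
  congr 1
  ext e
  rw [Finset.mem_filter, mem_JF, Finset.mem_image]
  constructor
  · rintro ⟨he, hr⟩
    obtain ⟨l, hl, hlE⟩ := rk_mem hE h0 he
    rw [hr] at hl
    have hlen := hl.2.1
    rcases fact_cases (by norm_num) hl with ⟨rfl, rfl⟩ | ⟨a, rfl, rfl⟩ | ⟨a, b, rfl, rfl⟩ | ⟨a, b, c, rfl, rfl⟩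
    · simp at hlen
    · simp at hlen
    · have hab : a ≠ b := by simpa using hl.1
      refine ⟨{a, b}, ?_, ?_⟩
      · rw [Finset.mem_powersetCard]
        refine ⟨?_, Finset.card_pair hab⟩
        intro x hx
        rw [hmem]
        rw [Finset.mem_insert, Finset.mem_singleton] at hx
        rcases hx with rfl | rfl
        · exact hlE x (by simp)
        · exact hlE x (by simp)
      · rw [FiF4.pr]
        have hperm : ({a, b} : Finset P).toList.Perm [a, b] := by
          rw [List.perm_ext_iff_of_nodup (Finset.nodup_toList _) hl.1]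
          intro x
          simp
        have h2 : (({a, b} : Finset P).toList).prod = [a, b].prod := by
          refine hperm.prod_eq' ?_
          refine (Finset.nodup_toList _).pairwise_of_forall_ne ?_
          intro x hx y hy _
          rw [Finset.mem_toList] at hx hy
          simp only [Finset.mem_insert, Finset.mem_singleton] at hx hy
          exact hl.2.2.2.1 x (by simpa using hx) y (by simpa using hy)
        rw [h2]
        simp
    · simp at hlen
  · rintro ⟨s, hs, rfl⟩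
    obtain ⟨h1, h2⟩ := hsub hs
    have h3 := fact_pr h0.sub h0.comm h1
    rw [h2] at h3
    exact ⟨pr_mem h1, rk_eq hE (by norm_num) ⟨_, h3⟩⟩

open Classical in
/-- a sum of a function of the rank -/
theorem sum_rk (f : ℕ → ℕ) : ∑ e ∈ JF E0, f (rk E e) = f 0 + 22 * f 1 + 231 * f 2 + 770 * f 3 := by
  have hmaps : ∀ e ∈ JF E0, rk E e ∈ Finset.range 4 := by
    intro e he
    have := (rk_spec hE h0 (mem_JF.1 he)).2
    rw [Finset.mem_range]
    omega
  have h1 := Finset.card_eq_sum_card_fiberwise (s := JF E0) (t := Finset.range 4) (f := rk E) (fun g hg => hmaps g hg)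
  rw [card_JF hE h0] at h1
  have h2 : ∑ e ∈ JF E0, f (rk E e) = ∑ k ∈ Finset.range 4, ∑ e ∈ (JF E0).filter (fun e => rk E e = k), f (rk E e) :=
    (Finset.sum_fiberwise_of_maps_to hmaps _).symm
  have h3 : ∀ k ∈ Finset.range 4, ∑ e ∈ (JF E0).filter (fun e => rk E e = k), f (rk E e) =
      ((JF E0).filter fun e => rk E e = k).card * f k := by
    intro k _
    rw [Finset.sum_congr rfl (g := fun _ => f k), Finset.sum_const, smul_eq_mul]
    intro g hg
    rw [(Finset.mem_filter.1 hg).2]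
  rw [h2, Finset.sum_congr rfl h3]
  simp only [Finset.sum_range_succ, Finset.sum_range_zero, zero_add] at h1 ⊢
  rw [cnt0 hE h0, cnt1 hE h0, cnt2 hE h0] at h1 ⊢
  have h4 : ((JF E0).filter fun e => rk E e = 3).card = 770 := by omega
  rw [h4, one_mul]

end plain

section cover

variable {H P : Type*} [Group H] [Group P] [Finite H] [Finite P] {z : H} {φ : H →* P} {E : Set P}

/-- the number of lifts with a property -/
noncomputable def Nn (φ : H →* P) (Q : H → Prop) (e : P) : ℕ := Set.ncard {x : H | φ x = e ∧ Q x}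

theorem Nn_conj (D : DC φ z) {Q : H → Prop} (hQ : ∀ x y, Q x → Q (y * x * y⁻¹)) {e e' : P} (h : IsConj e e') :
    Nn φ Q e' = Nn φ Q e := by
  obtain ⟨g, hg⟩ := isConj_iff.1 h
  obtain ⟨s, rfl⟩ := D.surj g
  have h1 : {x : H | φ x = e' ∧ Q x} = (fun x => s * x * s⁻¹) '' {x : H | φ x = e ∧ Q x} := by
    ext x
    constructor
    · rintro ⟨hx, hQx⟩
      refine ⟨s⁻¹ * x * s, ⟨?_, ?_⟩, ?_⟩
      · rw [map_mul, map_mul, map_inv, hx, ← hg]
        group
      · have := hQ x s⁻¹ hQx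
        rwa [inv_inv] at this
      · show s * (s⁻¹ * x * s) * s⁻¹ = x
        group
    · rintro ⟨y, ⟨hy, hQy⟩, rfl⟩
      refine ⟨?_, hQ _ _ hQy⟩
      show φ (s * y * s⁻¹) = _
      rw [map_mul, map_mul, map_inv, hy, hg]
  rw [Nn, h1, Set.ncard_image_of_injective]
  · rfl
  · intro a b hab
    exact mul_left_cancel (mul_right_cancel hab)

open Classical in
theorem Nn_eq (D : DC φ z) {Q : H → Prop} {x : H} {e : P} (hx : φ x = e) :
    Nn φ Q e = (if Q x then 1 else 0) + (if Q (x * z) then 1 else 0) := by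
  have hne : x ≠ x * z := by
    intro h1
    exact D.ne (left_eq_mul.1 h1)
  have h1 : {y : H | φ y = e ∧ Q y} = {y | (y = x ∧ Q x) ∨ (y = x * z ∧ Q (x * z))} := by
    ext y
    constructor
    · rintro ⟨hy, hQy⟩
      obtain ⟨c, hc, hyc⟩ := D.exists_c (hy.trans hx.symm)
      rcases D.ker c hc with rfl | rfl
      · left; rw [mul_one] at hyc; exact ⟨hyc, hyc ▸ hQy⟩
      · right; exact ⟨hyc, hyc ▸ hQy⟩
    · rintro (⟨rfl, hQy⟩ | ⟨rfl, hQy⟩)
      · exact ⟨hx, hQy⟩
      · exact ⟨by rw [map_mul, D.phz, mul_one, hx], hQy⟩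
  rw [Nn, h1]
  by_cases p1 : Q x <;> by_cases p2 : Q (x * z)
  · have : {y | (y = x ∧ Q x) ∨ (y = x * z ∧ Q (x * z))} = {x, x * z} := by
      ext y; simp [p1, p2]
    rw [this, Set.ncard_pair hne, if_pos p1, if_pos p2]
  · have : {y | (y = x ∧ Q x) ∨ (y = x * z ∧ Q (x * z))} = {x} := by
      ext y; simp [p1, p2]
    rw [this, Set.ncard_singleton, if_pos p1, if_neg p2]
  · have : {y | (y = x ∧ Q x) ∨ (y = x * z ∧ Q (x * z))} = {x * z} := by
      ext y; simp [p1, p2]
    rw [this, Set.ncard_singleton, if_neg p1, if_pos p2]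
  · have : {y | (y = x ∧ Q x) ∨ (y = x * z ∧ Q (x * z))} = ∅ := by
      ext y; simp [p1, p2]
    rw [this, Set.ncard_empty, if_neg p1, if_neg p2]

theorem Nn_le (D : DC φ z) {Q : H → Prop} (e : P) : Nn φ Q e ≤ 2 := by
  obtain ⟨x, hx⟩ := D.surj e
  rw [Nn_eq D hx]
  split_ifs <;> omega

theorem ncard_eq_sum (Q : H → Prop) (E0 : Set P) :
    Set.ncard {x : H | x ∈ AA φ E0 ∧ Q x} = ∑ e ∈ JF E0, Nn φ Q e := by
  classical
  haveI := Fintype.ofFinite H
  have h1 : {x : H | x ∈ AA φ E0 ∧ Q x} =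
      (((JF E0).biUnion fun e => Finset.univ.filter fun x : H => φ x = e ∧ Q x : Finset H) : Set H) := by
    ext x
    simp only [Set.mem_ofPred_eq, Finset.coe_biUnion, Finset.coe_filter, Finset.mem_univ, true_and, Set.mem_iUnion,
      Finset.mem_coe, mem_JF, exists_prop]
    constructor
    · rintro ⟨hq, hQx⟩
      exact ⟨φ x, hq, rfl, hQx⟩
    · rintro ⟨q, hq, hx, hQx⟩
      exact ⟨by rw [mem_AA, hx]; exact hq, hQx⟩
  rw [h1, Set.ncard_coe_finset, Finset.card_biUnion]
  · refine Finset.sum_congr rfl fun q _ => ?_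
    rw [Nn, ← Set.ncard_coe_finset]
    congr 1
    ext x; simp
  · intro q hq q' hq' hne
    rw [Function.onFun, Finset.disjoint_left]
    intro x hx hx'
    rw [Finset.mem_filter] at hx hx'
    exact hne (hx.2.1.symm.trans hx'.2.1)

/-- **the counting formula** -/
theorem count_formula (D : DC φ z) (hE : H22 E) {Q : H → Prop} (hQ : ∀ x y, Q x → Q (y * x * y⁻¹)) :
    ∃ f : ℕ → ℕ, (∀ k, f k ≤ 2) ∧ (∀ m ≤ 3, ∀ e, RR E m e → Nn φ Q e = f m) ∧
      ∀ E0, Max E E0 → Set.ncard {x : H | x ∈ AA φ E0 ∧ Q x} = f 0 + 22 * f 1 + 231 * f 2 + 770 * f 3 := by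
  classical
  obtain ⟨f, hf⟩ : ∃ f : ℕ → ℕ, f = fun k => if hk : ∃ e, RR E k e then Nn φ Q hk.choose else 0 := ⟨_, rfl⟩
  have h1 : ∀ m ≤ 3, ∀ e, RR E m e → Nn φ Q e = f m := by
    intro m hm e he
    have h3 : ∃ e', RR E m e' := ⟨e, he⟩
    rw [hf]
    simp only [dif_pos h3]
    obtain ⟨l, hl⟩ := he
    obtain ⟨l', hl'⟩ := h3.choose_spec
    exact Nn_conj D hQ (H22.isConj hE hm hl' hl)
  refine ⟨f, fun k => ?_, h1, ?_⟩
  · rw [hf]
    show (if hk : ∃ e, RR E k e then Nn φ Q hk.choose else 0) ≤ 2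
    split_ifs
    · exact Nn_le D _
    · omega
  · intro E0 h0
    rw [ncard_eq_sum, ← sum_rk hE h0 f]
    refine Finset.sum_congr rfl fun e he => ?_
    have := rk_spec hE h0 (mem_JF.1 he)
    exact h1 _ this.2 e this.1

/-! ### The system -/

/-- the family -/
def FF (φ : H →* P) (E : Set P) : Set (Subgroup H) := {A | ∃ E0, Max E E0 ∧ A = AA φ E0}

end cover

section G

variable {G : Type*} [Group G] [Finite G] {d : G} {P : Type*} [Group P] [Finite P] {E : Set P} {φ : CC d →* P}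

theorem sys (D : DC φ (UTh.zC d)) (hE : H22 E) : Sys d 11 (FF φ E) where
  ne := fun h => D.ne (Subtype.ext h)
  sq := by
    rintro _ ⟨E0, h0, rfl⟩ x hx
    exact sq_AA D hE h0 hx
  card := by
    rintro _ ⟨E0, h0, rfl⟩
    exact card_AA D hE h0
  z := by
    rintro _ ⟨E0, h0, rfl⟩
    rw [mem_AA, D.phz]
    exact one_mem _
  full := by
    intro B hsq hc
    obtain ⟨E0, h0, hn⟩ := exists_norm D hE (IsPGroup.of_card hc)
    exact ⟨E0, h0, eq_AA D hE h0 hsq hn hc.ge⟩
  conj := by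
    rintro _ ⟨E0, h0, rfl⟩ _ ⟨E1, h1, rfl⟩
    exact conj_AA' D hE h0 h1
  ex := by
    intro y hy
    obtain ⟨E0, h0, h1⟩ := exists_AA D hE (y := y) (by rw [← map_mul, hy, map_one])
    exact ⟨_, ⟨E0, h0, rfl⟩, h1⟩
  nsq := by
    intro y hy
    obtain ⟨E0, h0, h1⟩ := exists_AA D hE (y := y) (by rw [← map_mul, hy, D.phz])
    have := sq_AA D hE h0 h1
    rw [hy] at this
    exact D.ne this
  big := exists_big' D hE

end G

/-! ### The Thompson subgroup -/

section thompson

variable {H P : Type*} [Group H] [Group P] [Finite H] [Finite P] {z : H} {φ : H →* P} {E : Set P}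

theorem thompson_eq' (D : DC φ z) (hE : H22 E) (S : Sylow 2 H) :
    ∃ E0, Max E E0 ∧ Cfsg.thompsonSubgroupOf 2 (S : Subgroup H) = AA φ E0 := by
  have : Fact (Nat.Prime 2) := ⟨Nat.prime_two⟩
  obtain ⟨E0, h0, hn⟩ := exists_norm D hE S.isPGroup'
  refine ⟨E0, h0, ?_⟩
  have hp : IsPGroup 2 (AA φ E0) := IsPGroup.of_card (card_AA D hE h0)
  have hle : AA φ E0 ≤ S := by
    have h1 : (S : Subgroup H) ≤ Subgroup.normalizer (AA φ E0 : Set H) := by
      intro s hs
      refine UTh.conj_bij fun a ha => ?_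
      rw [mem_AA, map_mul, map_mul, map_inv]
      have h2 : Subgroup.closure E0 ≤ (Subgroup.closure E0).comap (MulAut.conj (φ s)).toMonoidHom := by
        rw [Subgroup.closure_le]
        intro e he
        exact Subgroup.subset_closure (hn s hs e he)
      exact h2 ha
    have h2 : IsPGroup 2 ((S : Subgroup H) ⊔ AA φ E0 : Subgroup H) :=
      IsPGroup.to_sup_of_normal_right' S.isPGroup' hp h1
    have h3 := S.is_maximal' h2 le_sup_left
    rw [← h3]
    exact le_sup_right
  have hel : Cfsg.IsElementaryAbelian 2 (AA φ E0) :=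
    ⟨⟨⟨fun a b => Subtype.ext (comm_AA D hE h0 a.2 b.2)⟩⟩, fun a ha => by rw [sq]; exact sq_AA D hE h0 ha⟩
  have key : ∀ B : Subgroup H, B ≤ S → Cfsg.IsElementaryAbelian 2 B → 2 ^ 11 ≤ Nat.card B → B = AA φ E0 := by
    intro B hB hBe hc
    refine eq_AA D hE h0 (fun b hb => ?_) (fun b hb => hn b (hB hb)) hc
    have := hBe.2 b hb
    rwa [sq] at this
  rw [ZJ.thompsonSubgroupOf_eq]
  have h3 : ZJ.maxIn (fun A : Subgroup H => Cfsg.IsElementaryAbelian 2 A) (S : Subgroup H) = {AA φ E0} := by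
    ext B
    rw [Set.mem_singleton_iff]
    constructor
    · rintro ⟨hBS, hBe, hmax⟩
      refine key B hBS hBe ?_
      have := hmax (AA φ E0) hle hel
      rwa [card_AA D hE h0] at this
    · rintro rfl
      refine ⟨hle, hel, fun B hB hBe => ?_⟩
      rw [card_AA D hE h0]
      by_contra hcon
      have h4 := key B hB hBe (by omega)
      rw [h4, card_AA D hE h0] at hcon
      exact hcon le_rfl
  rw [h3, sSup_singleton]

end thompson

end Cfsg.Agent.FTh
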