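import Cfsg.Agent.FTh.Sys
import Cfsg.Agent.FiF4.Thompson2
import Cfsg.Agent.UDbl.Fi
import Cfsg.Agent.ZJ.Bridge

/-!
# Preimages of the groups generated by maximal commuting sets
-/

set_option autoImplicit false
set_option linter.unusedSectionVars false
set_option linter.unusedSimpArgs false

namespace Cfsg.Agent.FTh

open Cfsg.Agent.ThreeTransp Cfsg.Agent.Fi22 Cfsg.Agent.FiF4 Cfsg.Agent.UDbl

section plain

variable {P : Type*} [Group P] [Finite P] {E : Set P}

theorem max_eq_inSub (hE : H22 E) {E0 : Set P} (h0 : Max E E0) : ∃ T : Sylow 2 P, E0 = inSub E (T : Subgroup P) := by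
  have hp := isPGroup_closure (fun a ha => mul_self hE.cls.1 (h0.sub ha)) h0.comm
  obtain ⟨T, hT⟩ := hp.exists_le_sylow
  refine ⟨T, ?_⟩
  refine Set.eq_of_subset_of_ncard_le ?_ ?_ (Set.toFinite _)
  · intro x hx
    exact ⟨h0.sub hx, hT (Subgroup.subset_closure hx)⟩
  · rw [Max.ncard hE h0, Max.ncard hE (max_of_sylow hE.cls T)]

theorem max_conj (hE : H22 E) {E0 E1 : Set P} (h0 : Max E E0) (h1 : Max E E1) :
    ∃ g : P, ∀ e ∈ E0, g * e * g⁻¹ ∈ E1 := by
  obtain ⟨T0, rfl⟩ := max_eq_inSub hE h0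
  obtain ⟨T1, rfl⟩ := max_eq_inSub hE h1
  obtain ⟨g, hg⟩ := MulAction.exists_smul_eq P T0 T1
  refine ⟨g, fun e he => ⟨hE.hconj g e he.1, ?_⟩⟩
  rw [← hg]
  exact Subgroup.smul_mem_pointwise_smul e (MulAut.conj g) (T0 : Subgroup P) he.2

end plain

variable {H P : Type*} [Group H] [Group P] [Finite H] [Finite P] {z : H} {φ : H →* P} {E : Set P}

/-- the preimage -/
def AA (φ : H →* P) (E0 : Set P) : Subgroup H := (Subgroup.closure E0).comap φ

theorem mem_AA {E0 : Set P} {x : H} : x ∈ AA φ E0 ↔ φ x ∈ Subgroup.closure E0 := Iff.rfl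

theorem card_comap' (D : DC φ z) (L : Subgroup P) : Nat.card (L.comap φ) = 2 * Nat.card L := by
  have h1 := (L.comap φ).card_mul_index
  rw [Subgroup.index_comap_of_surjective L D.surj] at h1
  have h2 := L.card_mul_index
  have h3 : Nat.card φ.ker = 2 := by
    have : (φ.ker : Set H) = {1, z} := by
      ext x
      rw [SetLike.mem_coe, MonoidHom.mem_ker, Set.mem_insert_iff, Set.mem_singleton_iff]
      constructor
      · exact D.ker x
      · rintro (rfl | rfl)
        · exact map_one φ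
        · exact D.phz
    have h4 : Nat.card φ.ker = (φ.ker : Set H).ncard := rfl
    rw [h4, this, Set.ncard_pair D.ne.symm]
  have h5 := Subgroup.card_eq_card_quotient_mul_card_subgroup φ.ker
  rw [Nat.card_congr (QuotientGroup.quotientKerEquivOfSurjective φ D.surj).toEquiv, h3] at h5
  have h6 : L.index ≠ 0 := Subgroup.index_ne_zero_of_finite
  rw [h5, ← h2] at h1
  apply Nat.eq_of_mul_eq_mul_right (Nat.pos_of_ne_zero h6)
  rw [h1]
  ring

variable (D : DC φ z) (hE : H22 E) {E0 : Set P} (h0 : Max E E0)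

include D hE h0

theorem card_AA : Nat.card (AA φ E0) = 2 ^ 11 := by
  rw [AA, card_comap' D, Max.card_closure hE h0]
  norm_num

theorem comm_lift {a x : H} (ha : φ a ∈ E0) (hx : x ∈ AA φ E0) : Commute a x := by
  obtain ⟨hl, -⟩ := D.lifts hE
  have key : ∀ m ∈ Subgroup.closure E0, ∀ x, φ x = m → Commute a x := by
    intro m hm
    induction hm using Subgroup.closure_induction with
    | mem m hm =>
      rintro x rfl
      exact hl a x (h0.sub ha) (h0.sub hm) (h0.comm _ ha _ hm)
    | one =>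
      intro x hx
      exact (D.cen' hx a).symm
    | mul u v _ _ hu hv =>
      intro x hx
      obtain ⟨u', hu'⟩ := D.surj u
      have h1 : Commute a (u' * (u'⁻¹ * x)) := by
        refine (hu u' hu').mul_right (hv _ ?_)
        rw [map_mul, map_inv, hu', hx, inv_mul_cancel_left]
      rwa [mul_inv_cancel_left] at h1
    | inv u _ hu =>
      intro x hx
      have h1 := hu x⁻¹ (by rw [map_inv, hx, inv_inv])
      have h2 := h1.inv_right
      rwa [inv_inv] at h2
  exact key _ hx x rfl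

theorem comm_AA {x y : H} (hx : x ∈ AA φ E0) (hy : y ∈ AA φ E0) : Commute x y := by
  have key : ∀ m ∈ Subgroup.closure E0, ∀ x, φ x = m → Commute x y := by
    intro m hm
    induction hm using Subgroup.closure_induction with
    | mem m hm =>
      rintro x rfl
      exact comm_lift D hE h0 hm hy
    | one =>
      intro x hx
      exact D.cen' hx y
    | mul u v _ _ hu hv =>
      intro x hx
      obtain ⟨u', hu'⟩ := D.surj u
      have h1 : Commute (u' * (u'⁻¹ * x)) y := by
        refine (hu u' hu').mul_left (hv _ ?_)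
        rw [map_mul, map_inv, hu', hx, inv_mul_cancel_left]
      rwa [mul_inv_cancel_left] at h1
    | inv u _ hu =>
      intro x hx
      have h1 := hu x⁻¹ (by rw [map_inv, hx, inv_inv])
      have h2 := h1.inv_left
      rwa [inv_inv] at h2
  exact key _ hx x rfl

theorem sq_AA {x : H} (hx : x ∈ AA φ E0) : x * x = 1 := by
  obtain ⟨-, hl⟩ := D.lifts hE
  have key : ∀ m ∈ Subgroup.closure E0, ∀ x, φ x = m → x * x = 1 := by
    intro m hm
    induction hm using Subgroup.closure_induction with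
    | mem m hm =>
      rintro x rfl
      exact hl x (h0.sub hm)
    | one =>
      intro x hx
      exact D.sq' hx
    | mul u v hu0 hv0 hu hv =>
      intro x hx
      obtain ⟨u', hu'⟩ := D.surj u
      have hv' : φ (u'⁻¹ * x) = v := by rw [map_mul, map_inv, hu', hx, inv_mul_cancel_left]
      have h1 := hu u' hu'
      have h2 := hv _ hv'
      have h3 : Commute u' (u'⁻¹ * x) :=
        comm_AA D hE h0 (mem_AA.2 (by rw [hu']; exact hu0)) (mem_AA.2 (by rw [hv']; exact hv0))
      have h4 : x = u' * (u'⁻¹ * x) := by rw [mul_inv_cancel_left]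
      generalize u'⁻¹ * x = v' at h2 h3 h4
      rw [h4]
      calc u' * v' * (u' * v') = u' * (v' * u') * v' := by simp only [mul_assoc]
        _ = u' * (u' * v') * v' := by rw [h3.eq]
        _ = (u' * u') * (v' * v') := by simp only [mul_assoc]
        _ = 1 := by rw [h1, h2, mul_one]
    | inv u _ hu =>
      intro x hx
      have h1 := hu x⁻¹ (by rw [map_inv, hx, inv_inv])
      rw [← mul_inv_rev] at h1
      exact inv_eq_one.1 h1
  exact key _ hx x rfl

omit [Finite H] in
/-- large elementary abelian subgroups -/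
theorem eq_AA [Finite H] {B : Subgroup H} (hsq : ∀ b ∈ B, b * b = 1) (hn : ∀ b ∈ B, ∀ e ∈ E0, φ b * e * (φ b)⁻¹ ∈ E0)
    (hc : 2 ^ 11 ≤ Nat.card B) : B = AA φ E0 := by
  have h2 : Nat.card B ≤ 2 * Nat.card (B.map φ) := by
    rw [← card_comap' D (B.map φ)]
    exact Nat.card_le_card_of_injective (Subgroup.inclusion (Subgroup.le_comap_map φ B))
      (Subgroup.inclusion_injective _)
  have h3 : B.map φ ≤ Subgroup.closure E0 := by
    by_contra hcon
    have h4 := Max.card_lt hE h0 (A := B.map φ) (by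
        rintro _ ⟨a, ha, rfl⟩ _ ⟨b, hb, rfl⟩
        rw [← map_mul, ← map_mul, comm_of_sq hsq ha hb]) (by
        rintro _ ⟨a, ha, rfl⟩
        rw [← map_mul, hsq a ha, map_one]) (by
        rintro _ ⟨a, ha, rfl⟩ e he
        exact hn a ha e he) hcon
    omega
  have h5 : B ≤ AA φ E0 := fun b hb => h3 ⟨b, hb, rfl⟩
  exact Subgroup.eq_of_le_of_card_ge h5 (by rw [card_AA D hE h0]; exact hc)

omit h0

/-- the commuting set attached to a 2-subgroup -/
theorem exists_norm {B : Subgroup H} (hB : IsPGroup 2 B) :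
    ∃ E0, Max E E0 ∧ ∀ b ∈ B, ∀ e ∈ E0, φ b * e * (φ b)⁻¹ ∈ E0 := by
  obtain ⟨T, hT⟩ := (hB.map φ).exists_le_sylow
  refine ⟨inSub E (T : Subgroup P), max_of_sylow hE.cls T, fun b hb e he => ⟨hE.hconj _ _ he.1, ?_⟩⟩
  have h1 : φ b ∈ (T : Subgroup P) := hT ⟨b, hb, rfl⟩
  exact mul_mem (mul_mem h1 he.2) (inv_mem h1)

/-- the members commuting with an involution -/
theorem exists_AA {y : H} (hy : φ y * φ y = 1) : ∃ E0, Max E E0 ∧ y ∈ AA φ E0 := by
  by_cases h1 : φ y = 1
  · obtain ⟨E0, h0, -⟩ := exists_max_of_comm hE.cls (S := ∅) (by simp) (by simp)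
    exact ⟨E0, h0, by rw [mem_AA, h1]; exact one_mem _⟩
  · obtain ⟨m, -, -, l, hl⟩ := (core22 hE).exists_fact hy h1
    obtain ⟨E0, h0, hS⟩ := exists_max_of_comm hE.cls (S := {x | x ∈ l}) (fun x hx => hl.2.2.1 x hx)
      (fun x hx y hy => hl.2.2.2.1 x hx y hy)
    refine ⟨E0, h0, ?_⟩
    rw [mem_AA, ← hl.2.2.2.2]
    apply Subgroup.list_prod_mem
    intro x hx
    exact Subgroup.subset_closure (hS hx)

theorem conj_AA' {E0 E1 : Set P} (h0 : Max E E0) (h1 : Max E E1) :
    ∃ s : H, ∀ x ∈ AA φ E0, s * x * s⁻¹ ∈ AA φ E1 := by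
  obtain ⟨g, hg⟩ := max_conj hE h0 h1
  obtain ⟨s, rfl⟩ := D.surj g
  refine ⟨s, fun x hx => ?_⟩
  rw [mem_AA, map_mul, map_mul, map_inv]
  have h2 : Subgroup.closure E0 ≤ (Subgroup.closure E1).comap (MulAut.conj (φ s)).toMonoidHom := by
    rw [Subgroup.closure_le]
    intro e he
    exact Subgroup.subset_closure (hg e he)
  exact h2 hx

/-- an element of order four -/
theorem exists_big' : ∃ y : H, (∃ k, y ^ 2 ^ k = 1) ∧ y * y ≠ 1 := by
  obtain ⟨a', ha, -⟩ := hE.cls.2.1
  obtain ⟨b', hb⟩ := hE.perp_nonempty ha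
  obtain ⟨g, hg1, hg2⟩ := H22.exists_conj_pair' hE ha hb hb.1 (y' := a') ⟨ha, fun h => hb.2.1 h.symm, hb.2.2.symm⟩
  obtain ⟨a, rfl⟩ := D.surj a'
  obtain ⟨b, rfl⟩ := D.surj b'
  obtain ⟨h, rfl⟩ := D.surj g
  -- odd powers also interchange the two members
  have hodd : ∀ k : ℕ, φ (h ^ (2 * k + 1)) * φ a * (φ (h ^ (2 * k + 1)))⁻¹ = φ b := by
    intro k
    induction k with
    | zero => rw [mul_zero, zero_add, pow_one]; exact hg1
    | succ k ih =>
      have e : h ^ (2 * (k + 1) + 1) = h * (h * h ^ (2 * k + 1)) := by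
        rw [← pow_succ', ← pow_succ']
        congr 1
      rw [e, map_mul, map_mul]
      calc φ h * (φ h * φ (h ^ (2 * k + 1))) * φ a * (φ h * (φ h * φ (h ^ (2 * k + 1))))⁻¹ =
          φ h * (φ h * (φ (h ^ (2 * k + 1)) * φ a * (φ (h ^ (2 * k + 1)))⁻¹) * (φ h)⁻¹) * (φ h)⁻¹ := by group
        _ = φ b := by rw [ih, hg2, hg1]
  obtain ⟨k, m, hm, hkm⟩ := Nat.exists_eq_two_pow_mul_odd (orderOf_pos h).ne'
  obtain ⟨l, rfl⟩ := hm
  set t := h ^ (2 * l + 1) with ht
  have ht2 : t ^ 2 ^ k = 1 := by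
    rw [ht, ← pow_mul, mul_comm, ← hkm, pow_orderOf_eq_one]
  by_cases htt : t * t = 1
  · refine ⟨a * t, ⟨2, ?_⟩, ?_⟩
    all_goals
      have h1 : φ (a * t * (a * t)) = φ a * φ b := by
        have h2 : a * t * (a * t) = a * (t * a * t⁻¹) * (t * t) := by group
        rw [h2, htt, mul_one, map_mul, map_mul, map_mul, map_inv, hodd l]
    · have h3 : φ (a * t) * φ (a * t) * (φ (a * t) * φ (a * t)) = 1 := by
        rw [← map_mul, h1]
        have e1 := ThreeTransp.mul_self hE.cls.1 ha
        have e2 := ThreeTransp.mul_self hE.cls.1 hb.1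
        calc φ a * φ b * (φ a * φ b) = φ a * (φ b * φ a) * φ b := by simp only [mul_assoc]
          _ = φ a * (φ a * φ b) * φ b := by rw [hb.2.2.eq]
          _ = (φ a * φ a) * (φ b * φ b) := by simp only [mul_assoc]
          _ = 1 := by rw [e1, e2, mul_one]
      -- the square lies in an elementary abelian subgroup
      obtain ⟨E0, h0, hS⟩ := exists_max_of_comm hE.cls (S := {φ a, φ b}) (by
          rintro x (rfl | rfl)
          · exact ha
          · exact hb.1) (by
          rintro x (rfl | rfl) y (rfl | rfl)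
          · exact Commute.refl _
          · exact hb.2.2
          · exact hb.2.2.symm
          · exact Commute.refl _)
      have h4 : a * t * (a * t) ∈ AA φ E0 := by
        rw [mem_AA, h1]
        exact mul_mem (Subgroup.subset_closure (hS (by simp))) (Subgroup.subset_closure (hS (by simp)))
      have h5 := sq_AA D hE h0 h4
      calc (a * t) ^ 2 ^ 2 = a * t * (a * t) * (a * t * (a * t)) := by
            rw [show (2 : ℕ) ^ 2 = 2 * 2 from rfl, pow_mul, sq, sq]
        _ = 1 := h5
    · intro h6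
      rw [h6, map_one] at h1
      apply hb.2.1
      have e1 := ThreeTransp.mul_self hE.cls.1 ha
      calc φ b = (φ a * φ a) * φ b := by rw [e1, one_mul]
        _ = φ a * (φ a * φ b) := by rw [mul_assoc]
        _ = φ a := by rw [← h1, mul_one]
  · exact ⟨t, ⟨k, ht2⟩, htt⟩

end Cfsg.Agent.FTh
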