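import Cfsg.Agent.FTh.Sys

/-!
# A norm argument
-/

set_option autoImplicit false
set_option linter.unusedSectionVars false
set_option linter.unusedSimpArgs false

namespace Cfsg.Agent.FTh

open Cfsg.Agent.UTh

theorem modEq_of_inv {P α : Type*} [Group P] [Finite P] [MulAction P α] [Finite α] {p : ℕ} [Fact p.Prime] (hP : IsPGroup p P)
    {X : Set α} (hX : ∀ g : P, ∀ x ∈ X, g • x ∈ X) :
    X.ncard ≡ (X ∩ MulAction.fixedPoints P α).ncard [MOD p] := by
  let S : SubMulAction P α := ⟨X, fun g x hx => hX g x hx⟩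
  have h1 := hP.card_modEq_card_fixedPoints S
  have h2 : Nat.card S = X.ncard := rfl
  have h3 : Nat.card (MulAction.fixedPoints P S) = (X ∩ MulAction.fixedPoints P α).ncard := by
    have h4 : X ∩ MulAction.fixedPoints P α = Subtype.val '' (MulAction.fixedPoints P S) := by
      ext x
      constructor
      · rintro ⟨hx, hf⟩
        exact ⟨⟨x, hx⟩, fun g => Subtype.ext (hf g), rfl⟩
      · rintro ⟨⟨y, hy⟩, hf, rfl⟩
        exact ⟨hy, fun g => congrArg Subtype.val (hf g)⟩
    rw [h4, Set.ncard_image_of_injective _ Subtype.val_injective]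
    rfl
  rwa [h2, h3] at h1

variable {G : Type*} [Group G] [Finite G] {d : G}

theorem no_254 {A : Subgroup G} (hsq : ∀ a ∈ A, a * a = 1) (hA : Nat.card A = 2 ^ 11) (hd : d ∈ A) {Δ : Set G}
    (hΔ : ∀ x, x ∈ Δ ↔ ∃ g ∈ Subgroup.normalizer (A : Set G), g * d * g⁻¹ = x) (hm : Δ.ncard = 254)
    (hgen : A ≤ Subgroup.closure Δ) : False := by
  classical
  have hp : Nat.Prime 127 := by norm_num
  haveI : Fact (Nat.Prime 127) := ⟨hp⟩
  set N := Subgroup.normalizer (A : Set G) with hN
  letI act1 : MulAction N G := MulAction.compHom G ((MulAut.conj).comp N.subtype)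
  have horb : MulAction.orbit N d = Δ := by
    ext x
    rw [MulAction.mem_orbit_iff, hΔ]
    constructor
    · rintro ⟨g, hg⟩
      exact ⟨g, g.2, hg⟩
    · rintro ⟨g, hg, hgx⟩
      exact ⟨⟨g, hg⟩, hgx⟩
  have hidx := MulAction.index_stabilizer N d
  rw [horb, hm] at hidx
  obtain ⟨P⟩ : Nonempty (Sylow 127 N) := inferInstance
  have hnP : ¬ (P : Subgroup N) ≤ MulAction.stabilizer N d := by
    intro h1
    have h2 := Subgroup.index_dvd_of_le h1
    rw [hidx] at h2
    exact P.not_dvd_index ((by norm_num : 127 ∣ 254).trans h2)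
  -- the action on `A`
  letI act2 : MulAction P A :=
    { smul := fun g a => ⟨(g : N) * a * ((g : N) : G)⁻¹, conj_mem' (g : N).2 a.2⟩
      one_smul := by
        intro a
        apply Subtype.ext
        show ((1 : P) : N) * (a : G) * (((1 : P) : N) : G)⁻¹ = a
        simp
      mul_smul := by
        intro g k a
        apply Subtype.ext
        show (((g * k : P) : N) : G) * (a : G) * (((g * k : P) : N) : G)⁻¹ =
          ((g : N) : G) * (((k : N) : G) * a * ((k : N) : G)⁻¹) * ((g : N) : G)⁻¹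
        simp only [Subgroup.coe_mul]
        group }
  have hact2 : ∀ (g : P) (a : A), ((g • a : A) : G) = (g : N) * a * ((g : N) : G)⁻¹ := fun _ _ => rfl
  letI cA : CommGroup A := { (inferInstance : Group A) with
    mul_comm := fun a b => Subtype.ext (comm_of_sq hsq a.2 b.2) }
  have hsqA : ∀ a : A, a * a = 1 := fun a => Subtype.ext (hsq a a.2)
  have hsm : ∀ (g : P) (a b : A), g • (a * b) = (g • a) * (g • b) := by
    intro g a b
    apply Subtype.ext
    rw [hact2, Subgroup.coe_mul, Subgroup.coe_mul, hact2, hact2]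
    group
  -- the fixed points form a subgroup
  let Fx : Subgroup A :=
    { carrier := MulAction.fixedPoints P A
      mul_mem' := by
        intro a b ha hb g
        rw [hsm, ha g, hb g]
      one_mem' := by
        intro g
        apply Subtype.ext
        rw [hact2]
        simp
      inv_mem' := by
        intro a ha g
        rw [inv_eq_of_mul_eq_one_left (hsqA a)]
        exact ha g }
  have hFx : Nat.card Fx = Nat.card (MulAction.fixedPoints P A) := rfl
  have hmod := P.isPGroup'.card_modEq_card_fixedPoints A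
  have hdvd := Subgroup.card_subgroup_dvd_card Fx
  rw [hA] at hdvd
  obtain ⟨t, ht, htc⟩ := (Nat.dvd_prime_pow Nat.prime_two).1 hdvd
  have htn : t ≠ 11 := by
    intro h1
    apply hnP
    intro g hg
    have h2 : Fx = ⊤ := by
      apply Subgroup.eq_top_of_card_eq
      rw [htc, hA, h1]
    have h3 : (⟨d, hd⟩ : A) ∈ Fx := by rw [h2]; exact Subgroup.mem_top _
    have h4 := congrArg Subtype.val (h3 ⟨g, hg⟩)
    rw [MulAction.mem_stabilizer_iff]
    exact h4
  rw [hA, ← hFx, htc] at hmod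
  have ht4 : t = 4 := by
    have h1 : t < 11 := lt_of_le_of_ne ht htn
    clear ht htn
    interval_cases t <;> revert hmod <;> decide
  subst ht4
  -- the norm map
  haveI : Fintype P := Fintype.ofFinite P
  let ν : A →* A :=
    { toFun := fun a => ∏ g : P, g • a
      map_one' := by
        apply Finset.prod_eq_one
        intro g _
        exact Fx.one_mem g
      map_mul' := by
        intro a b
        rw [← Finset.prod_mul_distrib]
        exact Finset.prod_congr rfl fun g _ => hsm g a b }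
  have hν : ∀ a, ν a = ∏ g : P, g • a := fun _ => rfl
  have hνi : ∀ (g : P) (a : A), ν (g • a) = ν a := by
    intro g a
    rw [hν, hν]
    refine Fintype.prod_equiv (Equiv.mulRight g) _ _ ?_
    intro h
    show h • g • a = (h * g) • a
    rw [mul_smul]
  have hνF : ∀ a ∈ Fx, ν a = a := by
    intro a ha
    have h1 : ν a = a ^ Nat.card P := by
      rw [hν, Finset.prod_congr rfl (g := fun _ => a) (fun g _ => ha g), Finset.prod_const, Finset.card_univ,
        Nat.card_eq_fintype_card]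
    obtain ⟨k, hk⟩ := P.isPGroup'.exists_card_eq
    have h2 : Odd (Nat.card P) := by
      rw [hk]
      exact Odd.pow (by decide)
    obtain ⟨m, hm'⟩ := h2
    rw [h1, hm', pow_succ, pow_mul, sq, hsqA, one_pow, one_mul]
  -- invariant subsets
  let X : Set A := {a | (a : G) ∈ Δ}
  have hXinv : ∀ g : P, ∀ x ∈ X, g • x ∈ X := by
    intro g x hx
    obtain ⟨k, hk, hkx⟩ := (hΔ _).1 hx
    refine (hΔ _).2 ⟨(g : N) * k, mul_mem (g : N).2 hk, ?_⟩
    rw [hact2, ← hkx]
    group
  have hXc : X.ncard = 254 := by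
    rw [← hm, ← Set.ncard_image_of_injective X Subtype.val_injective]
    congr 1
    ext x
    constructor
    · rintro ⟨y, hy, rfl⟩
      exact hy
    · intro hx
      obtain ⟨k, hk, hkx⟩ := (hΔ _).1 hx
      have hxA : x ∈ A := by rw [← hkx]; exact conj_mem' hk hd
      exact ⟨⟨x, hxA⟩, hx, rfl⟩
  have hX0 : ∀ x ∈ X, x ∉ Fx := by
    have h1 := modEq_of_inv P.isPGroup' hXinv
    rw [hXc] at h1
    have h2 : (X ∩ MulAction.fixedPoints P A).ncard ≤ 16 := by
      have h3 : (X ∩ MulAction.fixedPoints P A).ncard ≤ (MulAction.fixedPoints P A).ncard :=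
        Set.ncard_le_ncard Set.inter_subset_right
      have h4 : (MulAction.fixedPoints P A).ncard = 2 ^ 4 := htc
      rw [h4] at h3
      exact h3
    have h5 : (X ∩ MulAction.fixedPoints P A).ncard = 0 := by
      generalize (X ∩ MulAction.fixedPoints P A).ncard = k at h1 h2
      interval_cases k
      · rfl
      all_goals exfalso; revert h1; decide
    rw [Set.ncard_eq_zero] at h5
    intro x hx hxF
    have : x ∈ X ∩ MulAction.fixedPoints P A := ⟨hx, hxF⟩
    rw [h5] at this
    exact this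
  have hfib : ∀ x ∈ X, 127 ≤ ({y | y ∈ X ∧ ν y = ν x} : Set A).ncard := by
    intro x hx
    have h1 := modEq_of_inv (p := 127) P.isPGroup' (X := {y | y ∈ X ∧ ν y = ν x}) (by
      rintro g y ⟨hy1, hy2⟩
      exact ⟨hXinv g y hy1, by rw [hνi]; exact hy2⟩)
    have h2 : ({y | y ∈ X ∧ ν y = ν x} : Set A) ∩ MulAction.fixedPoints P A = ∅ := by
      rw [Set.eq_empty_iff_forall_notMem]
      rintro y ⟨⟨hy1, -⟩, hy2⟩
      exact hX0 y hy1 hy2
    rw [h2, Set.ncard_empty] at h1
    have h3 : 127 ∣ ({y | y ∈ X ∧ ν y = ν x} : Set A).ncard := (Nat.modEq_zero_iff_dvd).1 h1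
    refine Nat.le_of_dvd ?_ h3
    rw [Set.ncard_pos]
    exact ⟨x, hx, rfl⟩
  -- at most two values
  have htwo : ∃ v1 v2 : A, ∀ x ∈ X, ν x = v1 ∨ ν x = v2 := by
    by_contra hcon
    push Not at hcon
    obtain ⟨x0, hx0, -⟩ := hcon 1 1
    obtain ⟨x1, hx1, h01, -⟩ := hcon (ν x0) (ν x0)
    obtain ⟨x2, hx2, h02, h12⟩ := hcon (ν x0) (ν x1)
    have c0 := hfib x0 hx0
    have c1 := hfib x1 hx1
    have c2 := hfib x2 hx2
    have hd01 : Disjoint ({y | y ∈ X ∧ ν y = ν x0} : Set A) {y | y ∈ X ∧ ν y = ν x1} := by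
      rw [Set.disjoint_left]
      rintro y ⟨-, h1⟩ ⟨-, h2⟩
      exact h01 (h2.symm.trans h1)
    have hd2 : Disjoint (({y | y ∈ X ∧ ν y = ν x0} : Set A) ∪ {y | y ∈ X ∧ ν y = ν x1}) {y | y ∈ X ∧ ν y = ν x2} := by
      rw [Set.disjoint_left]
      rintro y (⟨-, h1⟩ | ⟨-, h1⟩) ⟨-, h2⟩
      · exact h02 (h2.symm.trans h1)
      · exact h12 (h2.symm.trans h1)
    have hle : ((({y | y ∈ X ∧ ν y = ν x0} : Set A) ∪ {y | y ∈ X ∧ ν y = ν x1}) ∪ {y | y ∈ X ∧ ν y = ν x2}) ⊆ X := by
      rintro y ((hy | hy) | hy)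
      · exact hy.1
      · exact hy.1
      · exact hy.1
    have h3 := Set.ncard_le_ncard hle
    rw [Set.ncard_union_eq hd2, Set.ncard_union_eq hd01, hXc] at h3
    omega
  obtain ⟨v1, v2, hv⟩ := htwo
  let L : Subgroup A :=
    { carrier := {w | ∃ i j : ℕ, w = v1 ^ i * v2 ^ j}
      mul_mem' := by
        rintro _ _ ⟨i, j, rfl⟩ ⟨i', j', rfl⟩
        refine ⟨i + i', j + j', ?_⟩
        rw [pow_add, pow_add]
        exact mul_mul_mul_comm _ _ _ _
      one_mem' := ⟨0, 0, by simp⟩
      inv_mem' := by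
        rintro _ ⟨i, j, rfl⟩
        exact ⟨i, j, inv_eq_of_mul_eq_one_left (hsqA _)⟩ }
  have hL4 : Nat.card L ≤ 4 := by
    have h1 : (L : Set A) ⊆ (((Finset.range 2 ×ˢ Finset.range 2).image fun p => v1 ^ p.1 * v2 ^ p.2 : Finset A) : Set A) := by
      rintro _ ⟨i, j, rfl⟩
      have hred : ∀ (v : A) (k : ℕ), ∃ k' < 2, v ^ k = v ^ k' := by
        intro v k
        refine ⟨k % 2, Nat.mod_lt _ (by norm_num), ?_⟩
        nth_rewrite 1 [← Nat.div_add_mod k 2]
        rw [pow_add, pow_mul, sq, hsqA, one_pow, one_mul]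
      obtain ⟨i', hi', e1⟩ := hred v1 i
      obtain ⟨j', hj', e2⟩ := hred v2 j
      rw [e1, e2, Finset.mem_coe, Finset.mem_image]
      exact ⟨(i', j'), by simp [hi', hj'], rfl⟩
    have h2 := Set.ncard_le_ncard h1
    rw [Set.ncard_coe_finset] at h2
    have h3 : Nat.card L = (L : Set A).ncard := rfl
    rw [h3]
    refine h2.trans (Finset.card_image_le.trans ?_)
    simp
  have hall : ∀ a : A, ν a ∈ L := by
    have h1 : A ≤ (L.comap ν).map A.subtype := by
      refine hgen.trans ?_
      rw [Subgroup.closure_le]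
      intro x hx
      obtain ⟨k, hk, hkx⟩ := (hΔ _).1 hx
      have hxA : x ∈ A := by rw [← hkx]; exact conj_mem' hk hd
      refine ⟨⟨x, hxA⟩, ?_, rfl⟩
      rcases hv ⟨x, hxA⟩ hx with h2 | h2
      · exact ⟨1, 0, by rw [h2]; simp⟩
      · exact ⟨0, 1, by rw [h2]; simp⟩
    intro a
    obtain ⟨b, hb, hba⟩ := h1 a.2
    have : b = a := Subtype.ext hba
    rw [← this]
    exact hb
  have hFL : Fx ≤ L := by
    intro a ha
    rw [← hνF a ha]
    exact hall a
  have h5 := Subgroup.card_le_of_le hFL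
  rw [htc] at h5
  have : (2 : ℕ) ^ 4 = 16 := by norm_num
  omega

end Cfsg.Agent.FTh
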