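import Cfsg.Agent.FTh.Count
import Cfsg.Agent.FTh.Norm

/-!
# The exceptional values 254 and 276
-/

set_option autoImplicit false
set_option linter.unusedSectionVars false
set_option linter.unusedSimpArgs false

namespace Cfsg.Agent.FTh

open Cfsg.Agent.ThreeTransp Cfsg.Agent.Fi22 Cfsg.Agent.FiF4 Cfsg.Agent.UDbl

section gen

variable {H P : Type*} [Group H] [Group P] [Finite H] [Finite P] {z : H} {φ : H →* P} {E : Set P}

theorem comm_of_cent (D : DC φ z) (hE : H22 E) {x c : H} (hx : φ x ∈ E) (hc : Commute (φ x) (φ c)) : Commute x c := by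
  have h1 := (core22 hE).cent (φ x) hx (φ c) hc
  obtain ⟨hl, -⟩ := D.lifts hE
  have key : ∀ m ∈ Subgroup.closure (perp E (φ x)), ∀ c, φ c = m → Commute x c := by
    intro m hm
    induction hm using Subgroup.closure_induction with
    | mem m hm =>
      rintro c rfl
      exact hl x c hx hm.1 hm.2.2
    | one =>
      intro c hc
      exact (D.cen' hc x).symm
    | mul u v _ _ hu hv =>
      intro c hc
      obtain ⟨u', hu'⟩ := D.surj u
      have h1 : Commute x (u' * (u'⁻¹ * c)) := by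
        refine (hu u' hu').mul_right (hv _ ?_)
        rw [map_mul, map_inv, hu', hc, inv_mul_cancel_left]
      rwa [mul_inv_cancel_left] at h1
    | inv u _ hu =>
      intro c hc
      have h1 := hu c⁻¹ (by rw [map_inv, hc, inv_inv])
      have h2 := h1.inv_right
      rwa [inv_inv] at h2
  exact key _ h1 c rfl

theorem not_conj_z (D : DC φ z) (hE : H22 E) {x : H} (hx : φ x ∈ E) (c : H) : c * x * c⁻¹ ≠ x * z := by
  intro h1
  have h2 : φ c * φ x * (φ c)⁻¹ = φ x := by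
    rw [← map_inv, ← map_mul, ← map_mul, h1, map_mul, D.phz, mul_one]
  have h3 : Commute (φ x) (φ c) := (mul_inv_eq_iff_eq_mul.1 h2).symm
  have h4 := comm_of_cent D hE hx h3
  rw [← h4.eq, mul_inv_cancel_right] at h1
  exact D.ne (left_eq_mul.1 h1)

theorem ker_cases (D : DC φ z) {x y : H} (h : φ x = φ y) : x = y ∨ x = y * z := by
  obtain ⟨c, hc, hxy⟩ := D.exists_c h
  rcases D.ker c hc with rfl | rfl
  · left; rw [hxy, mul_one]
  · right; exact hxy

/-- conjugate lifts of commuting members are interchanged by some element -/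
theorem exists_swap (D : DC φ z) (hE : H22 E) {x y : H} (hx : φ x ∈ E) (hy : φ y ∈ E) (hne : φ x ≠ φ y)
    (hc : Commute (φ x) (φ y)) (hxy : IsConj x y) : ∃ s, s * x * s⁻¹ = y ∧ s * y * s⁻¹ = x := by
  obtain ⟨g, hg1, hg2⟩ := H22.exists_conj_pair' hE (x := φ x) (y := φ y) (x' := φ y) (y' := φ x) hx
    ⟨hy, fun h => hne h.symm, hc⟩ hy ⟨hx, fun h => hne h, hc.symm⟩
  obtain ⟨s, rfl⟩ := D.surj g
  obtain ⟨k, hk⟩ := isConj_iff.1 hxy
  rw [← map_inv, ← map_mul, ← map_mul] at hg1 hg2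
  refine ⟨s, ?_, ?_⟩
  · rcases ker_cases D hg1 with h1 | h1
    · exact h1
    · exfalso
      apply not_conj_z D hE hy (s * k⁻¹)
      rw [← h1, ← hk]
      group
  · rcases ker_cases D hg2 with h1 | h1
    · exact h1
    · exfalso
      apply not_conj_z D hE hx (s * k)
      rw [← h1, ← hk]
      group

variable (hE : H22 E) {E0 : Set P} (h0 : Max E E0)

include hE h0 in
theorem parity {e1 e2 : P} (m1 : e1 ∈ Subgroup.closure E0) (m2 : e2 ∈ Subgroup.closure E0) (h1 : RR E 2 e1)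
    (h2 : RR E 1 e2) : ¬ RR E 2 (e1 * e2) := by
  intro h3
  obtain ⟨l, hl, hlE⟩ := rk_mem hE h0 m1
  rw [rk_eq hE (by norm_num) h1] at hl
  obtain ⟨l', hl', hlE'⟩ := rk_mem hE h0 m2
  rw [rk_eq hE (by norm_num) h2] at hl'
  have hlen := hl.2.1
  have hlen' := hl'.2.1
  rcases fact_cases (by norm_num) hl' with ⟨rfl, rfl⟩ | ⟨c, rfl, rfl⟩ | ⟨a, b, rfl, rfl⟩ | ⟨a, b, c, rfl, rfl⟩
  · simp at hlen'
  · rcases fact_cases (by norm_num) hl with ⟨rfl, rfl⟩ | ⟨a, rfl, rfl⟩ | ⟨a, b, rfl, rfl⟩ | ⟨a, b, c, rfl, rfl⟩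
    · simp at hlen
    · simp at hlen
    · have ha : a ∈ E0 := hlE a (by simp)
      have hb : b ∈ E0 := hlE b (by simp)
      have hc : e2 ∈ E0 := hlE' e2 (by simp)
      have hab : a ≠ b := by simpa using hl.1
      by_cases h4 : e2 = a
      · subst h4
        have h5 : e2 * b * e2 = b := by
          rw [(h0.comm e2 ha b hb).eq, mul_assoc, ThreeTransp.mul_self hE.cls.1 (h0.sub ha), mul_one]
        rw [h5] at h3
        have := rr_unique hE (by norm_num) (by norm_num) h3 (rr_one.2 (h0.sub hb))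
        omega
      by_cases h5 : e2 = b
      · subst h5
        rw [mul_assoc, ThreeTransp.mul_self hE.cls.1 (h0.sub hb), mul_one] at h3
        have := rr_unique hE (by norm_num) (by norm_num) h3 (rr_one.2 (h0.sub ha))
        omega
      have h6 : RR E 3 (a * b * e2) := rr_three.2 ⟨a, h0.sub ha, b, h0.sub hb, e2, h0.sub hc, hab, Ne.symm h4,
        Ne.symm h5, h0.comm a ha b hb, h0.comm a ha e2 hc, h0.comm b hb e2 hc, rfl⟩
      have := rr_unique hE (by norm_num) (by norm_num) h3 h6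
      omega
    · simp at hlen
  · simp at hlen'
  · simp at hlen'

end gen

section G

variable {G : Type*} [Group G] [Finite G] {d : G} {P : Type*} [Group P] [Finite P] {E : Set P} {φ : CC d →* P}

/-- conjugate to `d` -/
def Q (d : G) (x : CC d) : Prop := IsConj d (x : G)

theorem Q_conj (x y : CC d) (h : Q d x) : Q d (y * x * y⁻¹) := by
  show IsConj d ((y * x * y⁻¹ : CC d) : G)
  rw [Subgroup.coe_mul, Subgroup.coe_mul, Subgroup.coe_inv]
  exact isConj_conj' _ h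

/-- the numbers of lifts conjugate to `d` -/
structure Num (φ : CC d →* P) (E : Set P) (f : ℕ → ℕ) : Prop where
  le : ∀ k, f k ≤ 2
  zero : f 0 = 1
  nn : ∀ m ≤ 3, ∀ x : CC d, RR E m (φ x) →
    (f m = 0 → ¬ Q d x) ∧ (f m = 2 → Q d x) ∧ (f m = 1 → (Q d x ↔ ¬ Q d (x * UTh.zC d)))
  cnt : ∀ E0, Max E E0 → mu (AA φ E0) = 1 + 22 * f 1 + 231 * f 2 + 770 * f 3

theorem exists_num (D : DC φ (UTh.zC d)) (hE : H22 E) : ∃ f, Num φ E f := by
  classical
  obtain ⟨f, h1, h2, h3⟩ := count_formula D hE (Q := Q d) Q_conj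
  have hd1 : d ≠ 1 := fun h => D.ne (Subtype.ext h)
  have hN : ∀ m ≤ 3, ∀ x : CC d, RR E m (φ x) →
      f m = (if Q d x then 1 else 0) + (if Q d (x * UTh.zC d) then 1 else 0) := by
    intro m hm x hx
    rw [← h2 m hm _ hx, Nn_eq D rfl]
  have hf0 : f 0 = 1 := by
    rw [hN 0 (by norm_num) 1 (by rw [map_one]; exact rr_zero.2 rfl)]
    have h3 : ¬ Q d 1 := fun h4 => hd1 (isConj_one_left.1 h4)
    have h5 : Q d (1 * UTh.zC d) := by
      rw [one_mul]
      exact IsConj.refl _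
    rw [if_neg h3, if_pos h5]
  refine ⟨f, h1, hf0, ?_, ?_⟩
  · intro m hm x hx
    have h4 := hN m hm x hx
    rw [h4]
    by_cases p1 : Q d x <;> by_cases p2 : Q d (x * UTh.zC d) <;> simp [p1, p2]
  · intro E0 h0
    have h4 := h3 E0 h0
    rw [hf0] at h4
    rw [ncard_up_eq]
    exact h4

theorem cmul (x y : CC d) : ((x * y : CC d) : G) = (x : G) * (y : G) := rfl

theorem cconj (x y : CC d) : ((x * y * x⁻¹ : CC d) : G) = (x : G) * (y : G) * (x : G)⁻¹ := rfl

theorem zz (D : DC φ (UTh.zC d)) (x : CC d) : x * UTh.zC d * UTh.zC d = x := by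
  rw [mul_assoc, D.sq, mul_one]

variable (D : DC φ (UTh.zC d)) (hE : H22 E) {f : ℕ → ℕ} (N : Num φ E f) {E0 : Set P} (h0 : Max E E0)

include D hE N h0

/-- the rank of an element of `AA` with a prescribed number -/
theorem rank_cases {x : CC d} (hx : x ∈ AA φ E0) : ∃ m ≤ 3, RR E m (φ x) := by
  have := rk_spec hE h0 hx
  exact ⟨_, this.2, this.1⟩

theorem not_254 (h1 : f 1 = 1) (h2 : f 2 = 1) (h3 : f 3 = 0) : False := by
  have S := sys D hE
  have hA : AA φ E0 ∈ FF φ E := ⟨E0, h0, rfl⟩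
  have hm : mu (AA φ E0) = 254 := by
    rw [N.cnt E0 h0, h1, h2, h3]
  refine no_254 (A := up (AA φ E0)) (d := d) (Δ := {x : G | x ∈ up (AA φ E0) ∧ IsConj d x}) (fun a ha => up_sq S hA ha)
    (card_up S hA) (d_mem_up S hA) (mem_iff_orbit S hA) hm ?_
  have hdΔ : d ∈ {x : G | x ∈ up (AA φ E0) ∧ IsConj d x} := ⟨d_mem_up S hA, IsConj.refl _⟩
  have key : ∀ m ∈ Subgroup.closure E0, ∀ x : CC d, φ x = m →
      (x : G) ∈ Subgroup.closure {x : G | x ∈ up (AA φ E0) ∧ IsConj d x} := by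
    intro m hm
    induction hm using Subgroup.closure_induction with
    | mem m hm =>
      rintro x rfl
      have hxA : x ∈ AA φ E0 := Subgroup.subset_closure hm
      obtain ⟨-, -, h4⟩ := N.nn 1 (by norm_num) x (rr_one.2 (h0.sub hm))
      by_cases h5 : Q d x
      · exact Subgroup.subset_closure ⟨⟨x, hxA, rfl⟩, h5⟩
      · have h6 : Q d (x * UTh.zC d) := by
          by_contra h7
          exact h5 ((h4 h1).2 h7)
        have h7 : ((x * UTh.zC d : CC d) : G) ∈ Subgroup.closure {x : G | x ∈ up (AA φ E0) ∧ IsConj d x} :=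
          Subgroup.subset_closure ⟨⟨_, mul_mem hxA (S.z _ hA), rfl⟩, h6⟩
        have h8 : (x : G) = ((x * UTh.zC d : CC d) : G) * d := by
          have := congrArg Subtype.val (zz D x)
          rw [← this]
          rfl
        rw [h8]
        exact mul_mem h7 (Subgroup.subset_closure hdΔ)
    | one =>
      intro x hx
      rcases D.ker x hx with rfl | rfl
      · exact one_mem _
      · exact Subgroup.subset_closure hdΔ
    | mul u v _ _ hu hv =>
      intro x hx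
      obtain ⟨u', hu'⟩ := D.surj u
      have h4 := mul_mem (hu u' hu') (hv (u'⁻¹ * x) (by rw [map_mul, map_inv, hu', hx, inv_mul_cancel_left]))
      have h5 : (u' : G) * ((u'⁻¹ * x : CC d) : G) = x := by
        rw [← Subgroup.coe_mul, mul_inv_cancel_left]
      rwa [h5] at h4
    | inv u _ hu =>
      intro x hx
      have h4 := hu x⁻¹ (by rw [map_inv, hx, inv_inv])
      rw [Subgroup.coe_inv] at h4
      have h5 := inv_mem h4
      rwa [inv_inv] at h5
  rintro _ ⟨x, hx, rfl⟩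
  exact key _ hx x rfl

theorem case_i (h1 : f 1 = 2) (h2 : f 2 = 1) (h3 : f 3 = 0) {x y : CC d} (hx : φ x ∈ E0) (hy : φ y ∈ E0)
    (hne : φ x ≠ φ y) (hxy : IsConj x y) : ¬ Q d (x * y) := by
  intro hQ
  have S := sys D hE
  have hA : AA φ E0 ∈ FF φ E := ⟨E0, h0, rfl⟩
  have hxA : x ∈ AA φ E0 := Subgroup.subset_closure hx
  have hyA : y ∈ AA φ E0 := Subgroup.subset_closure hy
  have hxx := sq_AA D hE h0 hxA
  have hcxy := (comm_AA D hE h0 hxA hyA).eq
  obtain ⟨s, hs1, hs2⟩ := exists_swap D hE (h0.sub hx) (h0.sub hy) hne (h0.comm _ hx _ hy) hxy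
  obtain ⟨n, hn, hnd⟩ := trans_up S hA (x := ((x * y : CC d) : G)) ⟨_, mul_mem hxA hyA, rfl⟩ hQ
  obtain ⟨x', hx'A, hx'⟩ := UTh.inv_conj_mem hn (show (x : G) ∈ up (AA φ E0) from ⟨x, hxA, rfl⟩)
  have hx'v : (x' : G) = n⁻¹ * x * n := hx'
  have q1 : Q d x' := by
    show IsConj d (x' : G)
    rw [hx'v]
    have h4 : Q d x := (N.nn 1 (by norm_num) x (rr_one.2 (h0.sub hx))).2.1 h1
    have := isConj_conj' n⁻¹ h4
    rwa [inv_inv] at this
  have e1 : ((x' * UTh.zC d : CC d) : G) = n⁻¹ * y * n := by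
    rw [Subgroup.coe_mul, hx'v]
    have h4 : n⁻¹ * ((x * y : CC d) : G) * n = d := by rw [← hnd]; group
    show n⁻¹ * (x : G) * n * d = n⁻¹ * (y : G) * n
    nth_rewrite 2 [← h4]
    have h5 : (x : G) * x = 1 := congrArg Subtype.val hxx
    rw [Subgroup.coe_mul]
    calc n⁻¹ * (x : G) * n * (n⁻¹ * ((x : G) * y) * n) = n⁻¹ * ((x : G) * x) * y * n := by group
      _ = n⁻¹ * (y : G) * n := by rw [h5]; group
  have q2 : Q d (x' * UTh.zC d) := by
    show IsConj d ((x' * UTh.zC d : CC d) : G)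
    rw [e1]
    have h4 : Q d y := (N.nn 1 (by norm_num) y (rr_one.2 (h0.sub hy))).2.1 h1
    have := isConj_conj' n⁻¹ h4
    rwa [inv_inv] at this
  have hx'E : φ x' ∈ E := by
    obtain ⟨m, hm, hr⟩ := rank_cases D hE N h0 hx'A
    obtain ⟨n0, n2, n1⟩ := N.nn m hm x' hr
    have h4 : f m ≠ 0 := fun h => n0 h q1
    have h5 : f m ≠ 1 := fun h => (n1 h).1 q1 q2
    have h6 : m = 1 := by
      interval_cases m
      · exact absurd N.zero h5
      · rfl
      · exact absurd h2 h5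
      · exact absurd h3 h4
    rw [h6] at hr
    exact rr_one.1 hr
  -- the conjugating element
  have hsu : (s : G) * ((x * y : CC d) : G) * (s : G)⁻¹ = ((x * y : CC d) : G) := by
    have h4 : s * (x * y) * s⁻¹ = x * y := by
      calc s * (x * y) * s⁻¹ = (s * x * s⁻¹) * (s * y * s⁻¹) := by group
        _ = x * y := by rw [hs1, hs2, hcxy]
    have h5 := congrArg Subtype.val h4
    rwa [cconj] at h5
  have hcC : n⁻¹ * (s : G) * n ∈ Subgroup.centralizer ({d} : Set G) := by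
    rw [Subgroup.mem_centralizer_iff]
    intro w hw
    rw [Set.mem_singleton_iff.1 hw]
    calc d * (n⁻¹ * (s : G) * n) = n⁻¹ * ((n * d * n⁻¹) * s) * n := by group
      _ = n⁻¹ * ((s : G) * (n * d * n⁻¹)) * n := by rw [hnd, ← mul_inv_eq_iff_eq_mul.1 hsu]
      _ = n⁻¹ * (s : G) * n * d := by group
  apply not_conj_z D hE hx'E ⟨n⁻¹ * (s : G) * n, hcC⟩
  apply Subtype.ext
  rw [e1]
  show n⁻¹ * (s : G) * n * (x' : G) * (n⁻¹ * (s : G) * n)⁻¹ = n⁻¹ * (y : G) * n
  rw [hx'v]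
  have h6 : (s : G) * (x : G) * (s : G)⁻¹ = y := by
    have h5 := congrArg Subtype.val hs1
    rwa [cconj] at h5
  calc n⁻¹ * (s : G) * n * (n⁻¹ * x * n) * (n⁻¹ * (s : G) * n)⁻¹ = n⁻¹ * ((s : G) * x * (s : G)⁻¹) * n := by group
    _ = n⁻¹ * (y : G) * n := by rw [h6]

theorem not_276 (h1 : f 1 = 2) (h2 : f 2 = 1) (h3 : f 3 = 0) : False := by
  have S := sys D hE
  have hA : AA φ E0 ∈ FF φ E := ⟨E0, h0, rfl⟩
  have hlt : 2 < E0.ncard := by rw [Max.ncard hE h0]; norm_num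
  obtain ⟨p, q, r, hp, hq, hr, hpq, hpr, hqr⟩ := (Set.two_lt_ncard_iff (Set.toFinite _)).1 hlt
  obtain ⟨g1, hg1⟩ := exists_conj hE.cls (h0.sub hp) (h0.sub hq)
  obtain ⟨g2, hg2⟩ := exists_conj hE.cls (h0.sub hp) (h0.sub hr)
  obtain ⟨a, rfl⟩ := D.surj p
  obtain ⟨s1, rfl⟩ := D.surj g1
  obtain ⟨s2, rfl⟩ := D.surj g2
  obtain ⟨b, hb⟩ : ∃ b, b = s1 * a * s1⁻¹ := ⟨_, rfl⟩
  obtain ⟨c, hc⟩ : ∃ c, c = s2 * a * s2⁻¹ := ⟨_, rfl⟩
  have hbφ : φ b = q := by rw [hb, map_mul, map_mul, map_inv, hg1]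
  have hcφ : φ c = r := by rw [hc, map_mul, map_mul, map_inv, hg2]
  subst hbφ hcφ
  have kab : IsConj a b := isConj_iff.2 ⟨s1, hb.symm⟩
  have kac : IsConj a c := isConj_iff.2 ⟨s2, hc.symm⟩
  have kbc : IsConj b c := kab.symm.trans kac
  have n1 := case_i D hE N h0 h1 h2 h3 hp hr hpr kac
  have n2 := case_i D hE N h0 h1 h2 h3 hq hr hqr kbc
  have n3 := case_i D hE N h0 h1 h2 h3 hp hq hpq kab
  have haA : a ∈ AA φ E0 := Subgroup.subset_closure hp
  have hbA : b ∈ AA φ E0 := Subgroup.subset_closure hq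
  have hcA : c ∈ AA φ E0 := Subgroup.subset_closure hr
  have hzA := S.z _ hA
  have r2 : ∀ {x y : CC d}, φ x ∈ E0 → φ y ∈ E0 → φ x ≠ φ y → RR E 2 (φ (x * y)) := by
    intro x y hx hy hxy
    exact rr_two.2 ⟨_, h0.sub hx, _, h0.sub hy, hxy, h0.comm _ hx _ hy, map_mul _ _ _⟩
  have o2 : ∀ {x y : CC d}, φ x ∈ E0 → φ y ∈ E0 → φ x ≠ φ y → ¬ Q d (x * y) → Q d (x * y * UTh.zC d) := by
    intro x y hx hy hxy hn
    by_contra h4
    exact hn (((N.nn 2 (by norm_num) _ (r2 hx hy hxy)).2.2 h2).2 h4)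
  have m2 : Q d (b * c * UTh.zC d) := o2 hq hr hqr n2
  have m3 : Q d (a * b * UTh.zC d) := o2 hp hq hpq n3
  have q1 : ∀ {x : CC d}, φ x ∈ E0 → Q d x := fun {x} hx =>
    (N.nn 1 (by norm_num) x (rr_one.2 (h0.sub hx))).2.1 h1
  obtain ⟨n, hn, hnd⟩ := trans_up S hA (x := (c : G)) ⟨_, hcA, rfl⟩ (q1 hr)
  -- transport by `n`
  obtain ⟨y1, hy1A, hy1⟩ := UTh.inv_conj_mem hn (show (a : G) ∈ up (AA φ E0) from ⟨a, haA, rfl⟩)
  obtain ⟨y2, hy2A, hy2⟩ := UTh.inv_conj_mem hn (show ((b * UTh.zC d : CC d) : G) ∈ up (AA φ E0) from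
    ⟨_, mul_mem hbA hzA, rfl⟩)
  have v1 : (y1 : G) = n⁻¹ * a * n := hy1
  have v2 : (y2 : G) = n⁻¹ * ((b * UTh.zC d : CC d) : G) * n := hy2
  have hdn : d = n⁻¹ * (c : G) * n := by rw [← hnd]; group
  have trq : ∀ {x : CC d} {y : CC d}, (y : G) = n⁻¹ * x * n → (Q d y ↔ Q d x) := by
    intro x y hxy
    constructor
    · intro h4
      have h5 := isConj_conj' n h4
      rw [hxy] at h5
      have : n * (n⁻¹ * (x : G) * n) * n⁻¹ = x := by group
      rwa [this] at h5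
    · intro h4
      show IsConj d (y : G)
      rw [hxy]
      have := isConj_conj' n⁻¹ h4
      rwa [inv_inv] at this
  have w1 : ((y1 * UTh.zC d : CC d) : G) = n⁻¹ * ((a * c : CC d) : G) * n := by
    show (y1 : G) * d = _
    rw [v1, cmul, ← hnd]
    group
  have w2 : ((y2 * UTh.zC d : CC d) : G) = n⁻¹ * ((b * UTh.zC d * c : CC d) : G) * n := by
    show (y2 : G) * d = _
    rw [v2, cmul (b * UTh.zC d) c, ← hnd]
    group
  have w3 : ((y1 * y2 : CC d) : G) = n⁻¹ * ((a * (b * UTh.zC d) : CC d) : G) * n := by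
    rw [cmul, v1, v2, cmul a]
    group
  have w4 : ((y1 * y2 * UTh.zC d : CC d) : G) = n⁻¹ * ((a * (b * UTh.zC d) * c : CC d) : G) * n := by
    show ((y1 * y2 : CC d) : G) * d = _
    rw [w3, cmul (a * (b * UTh.zC d)) c, ← hnd]
    group
  have zc : ∀ x : CC d, UTh.zC d * x = x * UTh.zC d := D.cen
  have t1 : Q d y1 := (trq v1).2 (q1 hp)
  have t1' : ¬ Q d (y1 * UTh.zC d) := fun h => n1 ((trq w1).1 h)
  have t2 : Q d y2 := by
    refine (trq v2).2 ?_
    apply q1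
    rw [map_mul, D.phz, mul_one]
    exact hq
  have t2' : Q d (y2 * UTh.zC d) := by
    refine (trq w2).2 ?_
    have : b * UTh.zC d * c = b * c * UTh.zC d := by rw [mul_assoc, zc, ← mul_assoc]
    rw [this]
    exact m2
  have t3 : Q d (y1 * y2) := by
    refine (trq w3).2 ?_
    rw [← mul_assoc]
    exact m3
  have t3' : ¬ Q d (y1 * y2 * UTh.zC d) := by
    intro h4
    have h5 := (trq w4).1 h4
    refine (N.nn 3 (by norm_num) _ ?_).1 h3 h5
    rw [map_mul, map_mul, map_mul, D.phz, mul_one]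
    exact rr_three.2 ⟨_, h0.sub hp, _, h0.sub hq, _, h0.sub hr, hpq, hpr, hqr, h0.comm _ hp _ hq, h0.comm _ hp _ hr,
      h0.comm _ hq _ hr, rfl⟩
  -- ranks
  have rank2 : ∀ {y : CC d}, y ∈ AA φ E0 → Q d y → ¬ Q d (y * UTh.zC d) → y ≠ UTh.zC d → RR E 2 (φ y) := by
    intro y hyA h4 h5 h6
    obtain ⟨m, hm, hrr⟩ := rank_cases D hE N h0 hyA
    obtain ⟨n0, n2, n1⟩ := N.nn m hm y hrr
    obtain ⟨-, k2, -⟩ := N.nn m hm (y * UTh.zC d) (by rw [map_mul, D.phz, mul_one]; exact hrr)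
    have h7 : f m ≠ 0 := fun h => n0 h h4
    have h8 : f m ≠ 2 := fun h => h5 (k2 h)
    have h9 : m = 2 := by
      interval_cases m
      · exfalso
        rcases D.ker y (rr_zero.1 hrr) with rfl | rfl
        · exact S.ne (isConj_one_left.1 h4)
        · exact h6 rfl
      · exact absurd h1 h8
      · rfl
      · exact absurd h3 h7
    rwa [h9] at hrr
  have rank1 : RR E 1 (φ y2) := by
    obtain ⟨m, hm, hrr⟩ := rank_cases D hE N h0 hy2A
    obtain ⟨n0, n2, n1⟩ := N.nn m hm y2 hrr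
    have h4 : f m ≠ 0 := fun h => n0 h t2
    have h5 : f m ≠ 1 := fun h => (n1 h).1 t2 t2'
    have h6 : m = 1 := by
      interval_cases m
      · exact absurd N.zero h5
      · rfl
      · exact absurd h2 h5
      · exact absurd h3 h4
    rwa [h6] at hrr
  have hinj : ∀ {x y : CC d} {u : CC d}, (y : G) = n⁻¹ * x * n → y = UTh.zC d → x = c := by
    intro x y u hxy hyz
    have h4 : n⁻¹ * (x : G) * n = n⁻¹ * (c : G) * n := by
      rw [← hxy, hyz, ← hdn]
      rfl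
    exact Subtype.ext (mul_left_cancel (mul_right_cancel h4))
  have ne1 : y1 ≠ UTh.zC d := by
    intro h4
    have := hinj (u := a) v1 h4
    exact hpr (by rw [this])
  have ne3 : y1 * y2 ≠ UTh.zC d := by
    intro h4
    have h5 := hinj (u := a) w3 h4
    have h6 := r2 hp hq hpq
    have h7 : φ (a * b) = φ c := by
      rw [← h5, map_mul, map_mul, map_mul, D.phz, mul_one]
    rw [h7] at h6
    have := rr_unique hE (by norm_num) (by norm_num) h6 (rr_one.2 (h0.sub hr))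
    omega
  have R1 := rank2 hy1A t1 t1' ne1
  have R3 := rank2 (mul_mem hy1A hy2A) t3 t3' ne3
  rw [map_mul] at R3
  exact parity hE h0 hy1A hy2A R1 rank1 R3

end G

end Cfsg.Agent.FTh
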