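import Cfsg.Agent.FTh.Trans

/-!
# A compatible choice of lifts splits the double cover
-/

set_option autoImplicit false
set_option linter.unusedSectionVars false
set_option linter.unusedSimpArgs false

namespace Cfsg.Agent.FTh

open Cfsg.Agent.ThreeTransp Cfsg.Agent.Fi22 Cfsg.Agent.FiF4 Cfsg.Agent.UDbl Cfsg.Agent.Uni Cfsg.Agent.UTh

theorem psu6_perfect {F : Type*} [Field F] [Fintype F] (hF : Fintype.card F = 2 ^ 2) :
    commutator (Cfsg.PSU 6 F 2) = ⊤ := by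
  have h1 := Uni.SU_perfect (F := F) (q := 2) (n := 6) hF (by norm_num) (by norm_num)
  have h2 : (commutator (Cfsg.SU 6 F 2)).map (QuotientGroup.mk' (Subgroup.center (Cfsg.SU 6 F 2))) =
    commutator (Cfsg.PSU 6 F 2) := by
    rw [commutator_def, commutator_def, Subgroup.map_commutator, Subgroup.map_top_of_surjective _
      (QuotientGroup.mk'_surjective _)]
  rw [← h2, h1, Subgroup.map_top_of_surjective _ (QuotientGroup.mk'_surjective _)]

theorem mem_mul_iff_of_two {H : Type*} [Group H] {z : H} (hz : ∀ x, z * x = x * z) (hzz : z * z = 1)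
    {L : Subgroup H} (hall : ∀ x, x ∈ L ∨ x * z ∈ L) (s t : H) : s * t ∈ L ↔ (s ∈ L ↔ t ∈ L) := by
  have hns : ∀ s, s ∉ L → s * z ∈ L := fun s h => (hall s).resolve_left h
  by_cases h1 : s ∈ L <;> by_cases h2 : t ∈ L
  · simp [h1, h2, mul_mem h1 h2]
  · have : s * t ∉ L := fun h3 => h2 (by
      have := mul_mem (inv_mem h1) h3
      rwa [inv_mul_cancel_left] at this)
    simp [h1, h2, this]
  · have : s * t ∉ L := fun h3 => h1 (by
      have := mul_mem h3 (inv_mem h2)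
      rwa [mul_inv_cancel_right] at this)
    simp [h1, h2, this]
  · have h3 := mul_mem (hns s h1) (hns t h2)
    have h4 : s * z * (t * z) = s * t := by
      calc s * z * (t * z) = s * (z * t) * z := by simp only [mul_assoc]
        _ = s * (t * z) * z := by rw [hz]
        _ = s * t * (z * z) := by simp only [mul_assoc]
        _ = s * t := by rw [hzz, mul_one]
    rw [h4] at h3
    simp [h1, h2, h3]

variable {H P : Type*} [Group H] [Group P] [Finite H] [Finite P] {z : H} {φ : H →* P} {E : Set P}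

/-- a compatible choice of lifts of involutions -/
structure Good (φ : H →* P) (z : H) (E : Set P) (K : H → Prop) : Prop where
  k1 : ∀ x y, K x → K (y * x * y⁻¹)
  k2 : ∀ E0, Max E E0 → ∀ x ∈ AA φ E0, (K x ∨ K (x * z)) ∧ ¬ (K x ∧ K (x * z))
  k3 : ∀ E0, Max E E0 → ∀ x ∈ AA φ E0, ∀ y ∈ AA φ E0, K x → K y → K (x * y)

section good

variable (D : DC φ z) (hE : H22 E) {K : H → Prop} (kg : Good φ z E K)

include D hE kg

theorem K_one : K 1 := by
  obtain ⟨E0, h0, -⟩ := exists_max_of_comm hE.cls (S := ∅) (by simp) (by simp)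
  have hz : z ∈ AA φ E0 := by rw [mem_AA, D.phz]; exact one_mem _
  rcases (kg.k2 E0 h0 1 (one_mem _)).1 with h2 | h2
  · exact h2
  · rw [one_mul] at h2
    have h3 := kg.k3 E0 h0 z hz z hz h2 h2
    rwa [D.sq] at h3

theorem not_K_z : ¬ K z := by
  obtain ⟨E0, h0, -⟩ := exists_max_of_comm hE.cls (S := ∅) (by simp) (by simp)
  intro h
  apply (kg.k2 E0 h0 1 (one_mem _)).2
  rw [one_mul]
  exact ⟨K_one D hE kg, h⟩

theorem K_uniq {E1 : Set P} (h1 : Max E E1) {x y : H} (hx : x ∈ AA φ E1) (hxy : φ x = φ y) (kx : K x) (ky : K y) :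
    x = y := by
  rcases ker_cases D hxy with h | h
  · exact h
  · exfalso
    have hy : y ∈ AA φ E1 := by rw [mem_AA, ← hxy]; exact hx
    rw [h] at kx
    exact (kg.k2 E1 h1 y hy).2 ⟨ky, kx⟩

theorem K_ex {E1 : Set P} (h1 : Max E E1) {e : P} (he : e ∈ Subgroup.closure E1) : ∃ x, φ x = e ∧ K x := by
  obtain ⟨x, rfl⟩ := D.surj e
  rcases (kg.k2 E1 h1 x he).1 with h | h
  · exact ⟨x, rfl, h⟩
  · exact ⟨x * z, by rw [map_mul, D.phz, mul_one], h⟩

/-- **A compatible choice of lifts splits the double cover.** -/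
theorem not_perfect_of_K : commutator H ≠ ⊤ := by
  classical
  obtain ⟨p, hp, -⟩ := hE.cls.2.1
  obtain ⟨F, i1, i2, ⟨Δ⟩⟩ := hE.dict hp
  have hF := Δ.hF
  obtain ⟨E0, h0, hE0⟩ := exists_max_of_comm hE.cls (S := {p}) (by simpa using hp) (by
    intro a ha b hb
    rw [Set.mem_singleton_iff] at ha hb
    rw [ha, hb])
  have hpE0 : p ∈ E0 := hE0 (by simp)
  have kone := K_one D hE kg
  have kz := not_K_z D hE kg
  obtain ⟨a, ha, ka⟩ := K_ex D hE kg h0 (Subgroup.subset_closure hpE0)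
  have haA : a ∈ AA φ E0 := by rw [mem_AA, ha]; exact Subgroup.subset_closure hpE0
  have haa : a * a = 1 := sq_AA D hE h0 haA
  have haE : φ a ∈ E := by rw [ha]; exact hp
  have haR : a ∈ RC φ E p := (mem_RC_iff hE hp).2 (by rw [ha])
  have hzR : z ∈ RC φ E p := (mem_RC_iff hE hp).2 (by rw [D.phz]; exact Commute.one_right p)
  have acen : ∀ x ∈ RC φ E p, a * x = x * a := by
    intro x hx
    have h1 := (mem_RC_iff hE hp).1 hx
    rw [← ha] at h1
    exact (comm_of_cent D hE haE h1).eq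
  have hAAR : ∀ E1, Max E E1 → p ∈ E1 → ∀ x ∈ AA φ E1, x ∈ RC φ E p := by
    intro E1 h1 hp1 x hx
    exact (mem_RC_iff hE hp).2 (closure_comm h1.comm (Subgroup.subset_closure hp1) hx)
  -- the quotient by `a`
  let N : Subgroup (RC φ E p) :=
    { carrier := {x | (x : H) = 1 ∨ (x : H) = a}
      mul_mem' := by
        rintro x y (hx | hx) (hy | hy)
        · left; rw [Subgroup.coe_mul, hx, hy, one_mul]
        · right; rw [Subgroup.coe_mul, hx, hy, one_mul]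
        · right; rw [Subgroup.coe_mul, hx, hy, mul_one]
        · left; rw [Subgroup.coe_mul, hx, hy, haa]
      one_mem' := Or.inl rfl
      inv_mem' := by
        rintro x (hx | hx)
        · left; rw [Subgroup.coe_inv, hx, inv_one]
        · right; rw [Subgroup.coe_inv, hx, inv_eq_of_mul_eq_one_left haa] }
  have hNmem : ∀ x : RC φ E p, x ∈ N ↔ ((x : H) = 1 ∨ (x : H) = a) := fun _ => Iff.rfl
  have hNn : N.Normal := by
    refine ⟨?_⟩
    rintro x (hx | hx) g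
    · left
      rw [Subgroup.coe_mul, Subgroup.coe_mul, Subgroup.coe_inv, hx, mul_one, mul_inv_cancel]
    · right
      rw [Subgroup.coe_mul, Subgroup.coe_mul, Subgroup.coe_inv, hx, ← acen g g.2, mul_inv_cancel_right]
  obtain ⟨mk, hmkdef⟩ : ∃ mk : RC φ E p →* RC φ E p ⧸ N, mk = QuotientGroup.mk' N := ⟨_, rfl⟩
  have hmks : Function.Surjective mk := by rw [hmkdef]; exact QuotientGroup.mk'_surjective N
  have hmk1 : ∀ x : RC φ E p, mk x = 1 ↔ ((x : H) = 1 ∨ (x : H) = a) := by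
    intro x
    rw [← hNmem, hmkdef]
    exact QuotientGroup.eq_one_iff x
  have hmkeq : ∀ x y : RC φ E p, mk x = mk y → (x : H) = y ∨ (x : H) = y * a := by
    intro x y hxy
    have h1 : mk (y⁻¹ * x) = 1 := by rw [map_mul, map_inv, hxy, inv_mul_cancel]
    rcases (hmk1 _).1 h1 with h2 | h2
    · left
      rw [Subgroup.coe_mul, Subgroup.coe_inv] at h2
      exact (inv_mul_eq_one.1 h2).symm
    · right
      rw [Subgroup.coe_mul, Subgroup.coe_inv] at h2
      rw [← h2, mul_inv_cancel_left]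
  have hNρ : ∀ x ∈ N, rho φ Δ x = 1 := by
    intro x hx
    rw [rho_one_iff hE hp]
    rcases hx with hx | hx
    · left; rw [hx, map_one]
    · right; rw [hx, ha]
  obtain ⟨φ', hφ'⟩ : ∃ φ' : RC φ E p ⧸ N →* Cfsg.PSU 6 F 2, ∀ x, φ' (mk x) = rho φ Δ x := by
    refine ⟨QuotientGroup.lift N (rho φ Δ) hNρ, fun x => ?_⟩
    rw [hmkdef]
    rfl
  obtain ⟨z', hz'⟩ : ∃ z', z' = mk ⟨z, hzR⟩ := ⟨_, rfl⟩
  have D' : Dbl φ' z' := by
    refine ⟨?_, ?_, ?_, ?_, ?_, ?_⟩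
    · intro x'
      obtain ⟨x, rfl⟩ := hmks x'
      rw [hz', ← map_mul, ← map_mul]
      congr 1
      exact Subtype.ext (D.cen x)
    · rw [hz', ← map_mul]
      have : (⟨z, hzR⟩ * ⟨z, hzR⟩ : RC φ E p) = 1 := Subtype.ext D.sq
      rw [this, map_one]
    · intro h1
      rw [hz', hmk1] at h1
      rcases h1 with h1 | h1
      · exact D.ne h1
      · apply kz
        have : z = a := h1
        rw [this]
        exact ka
    · intro y
      obtain ⟨x, rfl⟩ := rho_surj D Δ y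
      exact ⟨mk x, hφ' x⟩
    · intro x' hx'
      obtain ⟨x, rfl⟩ := hmks x'
      rw [hφ', rho_one_iff hE hp] at hx'
      rcases hx' with h1 | h1
      · rcases D.ker _ h1 with h2 | h2
        · left
          rw [hmk1]
          exact Or.inl h2
        · right
          rw [hz']
          congr 1
          exact Subtype.ext h2
      · replace h1 := h1.trans ha.symm
        rcases ker_cases D h1 with h2 | h2
        · left
          rw [hmk1]
          exact Or.inr h2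
        · right
          have h3 : x = ⟨a, haR⟩ * ⟨z, hzR⟩ := Subtype.ext h2
          have h4 : mk ⟨a, haR⟩ = 1 := (hmk1 _).2 (Or.inr rfl)
          rw [h3, map_mul, h4, one_mul, hz']
    · rw [hz', hφ', rho_one_iff hE hp]
      left
      exact D.phz
  obtain ⟨K', hK'⟩ : ∃ K' : RC φ E p ⧸ N → Prop, ∀ x', K' x' ↔ ∃ y : RC φ E p, mk y = x' ∧ K (y : H) :=
    ⟨fun x' => ∃ y : RC φ E p, mk y = x' ∧ K (y : H), fun _ => Iff.rfl⟩
  have hplane : ∀ (w v : Fin 3 → Fin 6 → F), HB w v → ∃ E1, Max E E1 ∧ p ∈ E1 ∧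
      ∀ x : RC φ E p, mk x ∈ AW φ' w → (x : H) ∈ AA φ E1 := by
    intro w v h
    obtain ⟨E1, h1, hp1, h2⟩ := plane hE hp Δ h
    refine ⟨E1, h1, hp1, ?_⟩
    rintro x ⟨g, hg, hgx⟩
    refine h2 (φ x) x.2 ⟨g, hg, ?_⟩
    rw [← rho_apply, ← hφ']
    exact hgx
  have hsqE : ∀ x : RC φ E p, φ' (mk x) * φ' (mk x) = 1 → ∃ E1, Max E E1 ∧ p ∈ E1 ∧ (x : H) ∈ AA φ E1 := by
    intro x hx
    obtain ⟨w, v, h, hxw⟩ := exists_AW_of_sq hF D' hx
    obtain ⟨E1, h1, hp1, h2⟩ := hplane w v h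
    exact ⟨E1, h1, hp1, h2 x hxw⟩
  have haE1 : ∀ E1, p ∈ E1 → a ∈ AA φ E1 := by
    intro E1 hp1
    rw [mem_AA, ha]
    exact Subgroup.subset_closure hp1
  have hred : ∀ E1, Max E E1 → p ∈ E1 → ∀ x : RC φ E p, (x : H) ∈ AA φ E1 → K' (mk x) → K (x : H) := by
    intro E1 h1 hp1 x hx hkx
    obtain ⟨y, hy, ky⟩ := (hK' _).1 hkx
    rcases hmkeq y x hy with h2 | h2
    · rw [← h2]; exact ky
    · have h3 : (x : H) = y * a := by rw [h2, mul_assoc, haa, mul_one]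
      have hyA : (y : H) ∈ AA φ E1 := by rw [h2]; exact mul_mem hx (haE1 E1 hp1)
      rw [h3]
      exact kg.k3 E1 h1 _ hyA _ (haE1 E1 hp1) ky ka
  obtain ⟨w, v, h⟩ := exists_HB (F := F) hF
  have hK2 : ∀ x', φ' x' * φ' x' = 1 → (K' x' ∨ K' (x' * z')) ∧ ¬ (K' x' ∧ K' (x' * z')) := by
    intro x' hx'
    obtain ⟨x, rfl⟩ := hmks x'
    obtain ⟨E1, h1, hp1, hx1⟩ := hsqE x hx'
    have h2 := kg.k2 E1 h1 _ hx1
    have e1 : mk x * z' = mk (x * ⟨z, hzR⟩) := by rw [hz', map_mul]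
    constructor
    · rcases h2.1 with h3 | h3
      · left; exact (hK' _).2 ⟨x, rfl, h3⟩
      · right; rw [e1]; exact (hK' _).2 ⟨x * ⟨z, hzR⟩, rfl, h3⟩
    · rintro ⟨h3, h4⟩
      rw [e1] at h4
      have hxz : ((x * ⟨z, hzR⟩ : RC φ E p) : H) ∈ AA φ E1 := by
        rw [Subgroup.coe_mul]
        exact mul_mem hx1 (by rw [mem_AA]; show φ z ∈ _; rw [D.phz]; exact one_mem _)
      exact h2.2 ⟨hred E1 h1 hp1 x hx1 h3, hred E1 h1 hp1 _ hxz h4⟩
  have hnp : commutator (RC φ E p ⧸ N) ≠ ⊤ := by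
    refine not_perfect_of_good hF D' h (K := K') ?_ hK2 ?_ ?_
    · intro x' y' hx'
      obtain ⟨x, rfl, kx⟩ := (hK' _).1 hx'
      obtain ⟨y, rfl⟩ := hmks y'
      refine (hK' _).2 ⟨y * x * y⁻¹, by rw [map_mul, map_mul, map_inv], ?_⟩
      rw [Subgroup.coe_mul, Subgroup.coe_mul, Subgroup.coe_inv]
      exact kg.k1 _ _ kx
    · exact (hK' _).2 ⟨1, map_one mk, kone⟩
    · intro w1 v1 hwv x' hx' y' hy' kx' ky'
      obtain ⟨E1, h1, hp1, h2⟩ := hplane w1 v1 hwv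
      obtain ⟨x, rfl, kx⟩ := (hK' _).1 kx'
      obtain ⟨y, rfl, ky⟩ := (hK' _).1 ky'
      refine (hK' _).2 ⟨x * y, by rw [map_mul], ?_⟩
      rw [Subgroup.coe_mul]
      exact kg.k3 E1 h1 _ (h2 x hx') _ (h2 y hy') kx ky
  obtain ⟨hzc, hallc⟩ := index_two_of_not_perfect D'.surj D'.ker D'.sq (psu6_perfect hF) hnp
  have hpar := mem_mul_iff_of_two D'.cen D'.sq hallc
  -- lifts of members
  have hconjR : ∀ y y' : RC φ E p, φ y ∈ perp E p → φ y' ∈ perp E p → K (y : H) → K (y' : H) →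
      ∃ s : RC φ E p, s * y * s⁻¹ = y' := by
    intro y y' hy hy' ky ky'
    obtain ⟨g, hg1, hg2⟩ := H22.exists_conj_pair' hE (x := p) (y := φ y) (x' := p) (y' := φ y') hp hy hp hy'
    obtain ⟨s, rfl⟩ := D.surj g
    have hsR : s ∈ RC φ E p := (mem_RC_iff hE hp).2 (mul_inv_eq_iff_eq_mul.1 hg1).symm
    refine ⟨⟨s, hsR⟩, Subtype.ext ?_⟩
    obtain ⟨E1, h1, hE1⟩ := exists_max_of_comm hE.cls (S := {φ y'}) (by simpa using hy'.1) (by
      intro a ha b hb
      rw [Set.mem_singleton_iff] at ha hb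
      rw [ha, hb])
    symm
    refine K_uniq D hE kg h1 (x := (y' : H)) (y := s * y * s⁻¹) ?_ ?_ ky' (kg.k1 _ _ ky)
    · exact Subgroup.subset_closure (hE1 (by simp))
    · rw [map_mul, map_mul, map_inv, hg2]
  have claim1 : ∀ y : RC φ E p, φ y ∈ perp E p → K (y : H) → mk y ∈ commutator (RC φ E p ⧸ N) := by
    intro y hy ky
    by_contra hny
    have hall : ∀ y' : RC φ E p, φ y' ∈ perp E p → K (y' : H) → mk y' ∉ commutator (RC φ E p ⧸ N) := by
      intro y' hy' ky' hm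
      apply hny
      obtain ⟨s, hs⟩ := hconjR y' y hy' hy ky' ky
      rw [← hs, map_mul, map_mul, map_inv]
      exact (inferInstance : (commutator (RC φ E p ⧸ N)).Normal).conj_mem _ hm _
    -- a hexad
    have hlt : 2 < E0.ncard := by rw [Max.ncard hE h0]; norm_num
    obtain ⟨b, c, hb, hc, hbp, hcp, hbc⟩ : ∃ b c, b ∈ E0 ∧ c ∈ E0 ∧ b ≠ p ∧ c ≠ p ∧ b ≠ c := by
      obtain ⟨q1, q2, q3, hq1, hq2, hq3, n12, n13, n23⟩ := (Set.two_lt_ncard_iff (Set.toFinite _)).1 hlt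
      by_cases e1 : q1 = p
      · exact ⟨q2, q3, hq2, hq3, fun h => n12 (e1.trans h.symm), fun h => n13 (e1.trans h.symm), n23⟩
      by_cases e2 : q2 = p
      · exact ⟨q1, q3, hq1, hq3, e1, fun h => n23 (e2.trans h.symm), n13⟩
      · exact ⟨q1, q2, hq1, hq2, e1, e2, n12⟩
    obtain ⟨y3, y4, y5, hhex, -⟩ := hE.exists_hexad hp (b := b) (c := c)
      ⟨h0.sub hb, hbp, h0.comm _ hpE0 _ hb⟩ ⟨h0.sub hc, hcp, h0.comm _ hpE0 _ hc⟩ hbc (h0.comm _ hb _ hc)
    obtain ⟨E2, h2, hE2⟩ := exists_max_of_comm hE.cls (S := {x | x ∈ [p, b, c, y3, y4, y5]})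
      (fun x hx => hhex.mem x hx) (fun x hx y hy => hhex.comm x hx y hy)
    have m0 : p ∈ E2 := hE2 (by simp)
    have m1 : b ∈ E2 := hE2 (by simp)
    have m2 : c ∈ E2 := hE2 (by simp)
    have m3 : y3 ∈ E2 := hE2 (by simp)
    have m4 : y4 ∈ E2 := hE2 (by simp)
    have m5 : y5 ∈ E2 := hE2 (by simp)
    have hnd := hhex.nodup
    simp only [List.nodup_cons, List.mem_cons, List.not_mem_nil, or_false, not_or, List.nodup_nil, and_true,
      not_false_eq_true] at hnd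
    obtain ⟨⟨-, -, n3, n4, n5⟩, -⟩ := hnd
    have lft : ∀ e ∈ E2, e ≠ p → ∃ Y : RC φ E p, φ Y = e ∧ K (Y : H) ∧ (Y : H) ∈ AA φ E2 ∧
        mk Y ∉ commutator (RC φ E p ⧸ N) := by
      intro e he hep
      obtain ⟨x, hx, kx⟩ := K_ex D hE kg h2 (Subgroup.subset_closure he)
      have hxA : x ∈ AA φ E2 := by rw [mem_AA, hx]; exact Subgroup.subset_closure he
      have hxR := hAAR E2 h2 m0 x hxA
      refine ⟨⟨x, hxR⟩, hx, kx, hxA, hall _ ?_ kx⟩
      show φ x ∈ perp E p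
      rw [hx]
      exact ⟨h2.sub he, hep, h2.comm _ m0 _ he⟩
    obtain ⟨B1, f1, g1, j1, l1⟩ := lft b m1 hbp
    obtain ⟨B2, f2, g2, j2, l2⟩ := lft c m2 hcp
    obtain ⟨B3, f3, g3, j3, l3⟩ := lft y3 m3 (Ne.symm n3)
    obtain ⟨B4, f4, g4, j4, l4⟩ := lft y4 m4 (Ne.symm n4)
    obtain ⟨B5, f5, g5, j5, l5⟩ := lft y5 m5 (Ne.symm n5)
    have hprod := hhex.prod
    simp only [List.prod_cons, List.prod_nil, mul_one] at hprod
    have ha2 := haE1 E2 m0
    have kk : K (a * ((B1 : H) * (B2 * (B3 * (B4 * B5))))) := by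
      have q4 := kg.k3 E2 h2 _ j4 _ j5 g4 g5
      have q3 := kg.k3 E2 h2 _ j3 _ (mul_mem j4 j5) g3 q4
      have q2 := kg.k3 E2 h2 _ j2 _ (mul_mem j3 (mul_mem j4 j5)) g2 q3
      have q1 := kg.k3 E2 h2 _ j1 _ (mul_mem j2 (mul_mem j3 (mul_mem j4 j5))) g1 q2
      exact kg.k3 E2 h2 _ ha2 _ (mul_mem j1 (mul_mem j2 (mul_mem j3 (mul_mem j4 j5)))) ka q1
    have hone : a * ((B1 : H) * (B2 * (B3 * (B4 * B5)))) = 1 := by
      symm
      refine K_uniq D hE kg h2 (one_mem _) ?_ kone kk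
      rw [map_one, map_mul, map_mul, map_mul, map_mul, map_mul, ha, f1, f2, f3, f4, f5]
      exact hprod.symm
    have hmk5 : mk (B1 * (B2 * (B3 * (B4 * B5)))) = 1 := by
      rw [hmk1]
      right
      have h3 := inv_eq_of_mul_eq_one_right hone
      rw [inv_eq_of_mul_eq_one_left haa] at h3
      rw [h3]
      rfl
    have h6 : mk (B1 * (B2 * (B3 * (B4 * B5)))) ∈ commutator (RC φ E p ⧸ N) := by
      rw [hmk5]; exact one_mem _
    rw [map_mul, map_mul, map_mul, map_mul, hpar, hpar, hpar, hpar] at h6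
    tauto
  have claim2 : ∀ E1, Max E E1 → p ∈ E1 → ∀ m ∈ Subgroup.closure E1, ∀ y : RC φ E p, φ y = m → K (y : H) →
      mk y ∈ commutator (RC φ E p ⧸ N) := by
    intro E1 h1 hp1 m hm
    induction hm using Subgroup.closure_induction with
    | mem m hm =>
      rintro y rfl ky
      by_cases hmp : φ y = p
      · have h2 : (y : H) = a := by
          refine K_uniq D hE kg h1 (Subgroup.subset_closure hm) ?_ ky ka
          rw [hmp, ha]
        have h3 : mk y = 1 := (hmk1 _).2 (Or.inr h2)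
        rw [h3]; exact one_mem _
      · exact claim1 y ⟨h1.sub hm, hmp, h1.comm _ hp1 _ hm⟩ ky
    | one =>
      intro y hy ky
      have h2 : (y : H) = 1 := by
        refine K_uniq D hE kg h1 (x := (y : H)) (y := 1) ?_ ?_ ky kone
        · rw [mem_AA, hy]; exact one_mem _
        · rw [hy, map_one]
      have h3 : y = 1 := Subtype.ext h2
      rw [h3, map_one]; exact one_mem _
    | mul u v hu0 hv0 hu hv =>
      intro y hy ky
      obtain ⟨u', hu', ku⟩ := K_ex D hE kg h1 hu0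
      obtain ⟨v', hv', kv⟩ := K_ex D hE kg h1 hv0
      have huA : u' ∈ AA φ E1 := by rw [mem_AA, hu']; exact hu0
      have hvA : v' ∈ AA φ E1 := by rw [mem_AA, hv']; exact hv0
      have h2 := hu ⟨u', hAAR E1 h1 hp1 _ huA⟩ hu' ku
      have h3 := hv ⟨v', hAAR E1 h1 hp1 _ hvA⟩ hv' kv
      have h4 : (y : H) = u' * v' := by
        refine K_uniq D hE kg h1 (x := (y : H)) (y := u' * v') ?_ ?_ ky (kg.k3 E1 h1 _ huA _ hvA ku kv)
        · rw [mem_AA, hy]; exact mul_mem hu0 hv0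
        · rw [map_mul, hy, hu', hv']
      have h5 : y = ⟨u', hAAR E1 h1 hp1 _ huA⟩ * ⟨v', hAAR E1 h1 hp1 _ hvA⟩ := Subtype.ext h4
      rw [h5, map_mul]
      exact mul_mem h2 h3
    | inv u hu0 hu =>
      intro y hy ky
      have hyA : (y : H) ∈ AA φ E1 := by rw [mem_AA, hy]; exact inv_mem hu0
      have h2 : y⁻¹ = y := inv_eq_of_mul_eq_one_left (Subtype.ext (sq_AA D hE h1 hyA))
      refine hu y ?_ ky
      have h3 : φ ((y⁻¹ : RC φ E p) : H) = φ (y : H) := by rw [h2]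
      rw [Subgroup.coe_inv, map_inv, hy, inv_inv] at h3
      rw [hy]
      exact h3.symm
  -- the subgroups
  obtain ⟨L, hLdef⟩ : ∃ L : Subgroup H, L = ((commutator (RC φ E p ⧸ N)).comap mk).map (RC φ E p).subtype := ⟨_, rfl⟩
  obtain ⟨S1, hS1def⟩ : ∃ S1 : Subgroup H, S1 = ((SW φ' w).comap mk).map (RC φ E p).subtype := ⟨_, rfl⟩
  have hS1mem : ∀ x : RC φ E p, (x : H) ∈ S1 ↔ ∃ g ∈ TT w, Fi22.pr g = rho φ Δ x := by
    intro x
    rw [hS1def]
    constructor
    · rintro ⟨y, ⟨g, hg, hgy⟩, hyx⟩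
      have : y = x := Subtype.ext hyx
      subst this
      exact ⟨g, hg, by rw [← hφ']; exact hgy⟩
    · rintro ⟨g, hg, hgx⟩
      exact ⟨x, ⟨g, hg, by rw [hφ']; exact hgx⟩, rfl⟩
  have hS1R : S1 ≤ RC φ E p := by
    rw [hS1def]
    rintro _ ⟨x, -, rfl⟩
    exact x.2
  have DCa : DC mk (⟨a, haR⟩ : RC φ E p) := by
    refine ⟨fun x => Subtype.ext (acen x x.2), Subtype.ext haa, ?_, hmks, ?_, (hmk1 _).2 (Or.inr rfl)⟩
    · intro h1
      have : a = 1 := congrArg Subtype.val h1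
      rw [this, map_one] at ha
      exact ne_one hE.cls.1 hp ha.symm
    · intro x hx
      rcases (hmk1 x).1 hx with h1 | h1
      · exact Or.inl (Subtype.ext h1)
      · exact Or.inr (Subtype.ext h1)
  have hcS1 : Nat.card S1 = 2 ^ 17 := by
    rw [hS1def, ← Nat.card_congr (((SW φ' w).comap mk).equivMapOfInjective _ (Subgroup.subtype_injective _)).toEquiv,
      card_comap' DCa, card_SW hF h D']
    norm_num
  have hcH : Nat.card H = 2 ^ 18 * (3 ^ 9 * 5 ^ 2 * 7 * 11 * 13) := by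
    have h1 := card_comap' D (⊤ : Subgroup P)
    rw [Subgroup.comap_top, Subgroup.card_top, Subgroup.card_top, hE.card_G] at h1
    rw [h1]
    norm_num
  have : Fact (Nat.Prime 2) := ⟨Nat.prime_two⟩
  have hpS1 : IsPGroup 2 S1 := IsPGroup.of_card hcS1
  obtain ⟨T, hT⟩ := hpS1.exists_le_sylow
  have hcT : Nat.card (T : Subgroup H) = 2 ^ 18 := by
    rw [Sylow.card_eq_multiplicity, hcH, Nat.factorization_mul (by norm_num) (by norm_num), Finsupp.add_apply,
      Nat.Prime.factorization_pow Nat.prime_two,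
      Nat.factorization_eq_zero_of_not_dvd (by norm_num : ¬ 2 ∣ 3 ^ 9 * 5 ^ 2 * 7 * 11 * 13), Finsupp.single_eq_same,
      add_zero]
  have hTodd : Odd (T : Subgroup H).index := by
    have h3 := (T : Subgroup H).card_mul_index
    rw [hcT, hcH] at h3
    rw [Nat.eq_of_mul_eq_mul_left (by norm_num) h3]
    decide
  have hS1T : ∀ t ∈ (T : Subgroup H), ∀ s ∈ S1, t * s * t⁻¹ ∈ S1 := by
    have h1 : (S1.subgroupOf (T : Subgroup H)).index = 2 := by
      have h2 := (S1.subgroupOf (T : Subgroup H)).card_mul_index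
      rw [Nat.card_congr (Subgroup.subgroupOfEquivOfLe hT).toEquiv, hcS1, hcT] at h2
      have e : (2 ^ 18 : ℕ) = 2 ^ 17 * 2 := by norm_num
      rw [e] at h2
      exact Nat.eq_of_mul_eq_mul_left (by norm_num) h2
    have h2 := Subgroup.normal_of_index_eq_two h1
    intro t ht s hs
    exact h2.conj_mem ⟨s, hT hs⟩ hs ⟨t, ht⟩
  obtain ⟨S0, hS0def⟩ : ∃ S0 : Subgroup H, S0 = Subgroup.closure {y | y ∈ S1 ∧ φ y * φ y = 1 ∧ K y} := ⟨_, rfl⟩
  have hS01 : S0 ≤ S1 := by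
    rw [hS0def, Subgroup.closure_le]
    exact fun y hy => hy.1
  have hS0n : ∀ t ∈ (T : Subgroup H), ∀ s ∈ S0, t * s * t⁻¹ ∈ S0 := by
    intro t ht
    have h1 : S0 ≤ S0.comap (MulAut.conj t).toMonoidHom := by
      nth_rewrite 1 [hS0def]
      rw [Subgroup.closure_le]
      rintro y ⟨hy1, hy2, hy3⟩
      show t * y * t⁻¹ ∈ S0
      rw [hS0def]
      refine Subgroup.subset_closure ⟨hS1T t ht y hy1, ?_, kg.k1 _ _ hy3⟩
      rw [map_mul, map_mul, map_inv]
      calc φ t * φ y * (φ t)⁻¹ * (φ t * φ y * (φ t)⁻¹) = φ t * (φ y * φ y) * (φ t)⁻¹ := by group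
        _ = 1 := by rw [hy2]; group
    exact fun s hs => h1 hs
  have hS0L : S0 ≤ L := by
    rw [hS0def, Subgroup.closure_le]
    rintro y ⟨hy1, hy2, hy3⟩
    have hyR := hS1R hy1
    rw [SetLike.mem_coe, hLdef]
    refine ⟨⟨y, hyR⟩, ?_, rfl⟩
    have h1 : φ' (mk ⟨y, hyR⟩) * φ' (mk ⟨y, hyR⟩) = 1 := by
      rw [hφ', ← map_mul, rho_one_iff hE hp]
      left
      rw [Subgroup.coe_mul, map_mul]
      exact hy2
    obtain ⟨E1, h2, hp2, h3⟩ := hsqE _ h1
    exact claim2 E1 h2 hp2 _ h3 ⟨y, hyR⟩ rfl hy3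
  have hzL : z ∉ L := by
    rw [hLdef]
    rintro ⟨r, hr, hrz⟩
    apply hzc
    have : r = ⟨z, hzR⟩ := Subtype.ext hrz
    rw [hz', ← this]
    exact hr
  have hz0 : z ∉ S0 := fun h1 => hzL (hS0L h1)
  have hzS1 : z ∈ S1 := (hS1mem ⟨z, hzR⟩).2 ⟨1, one_mem _, by
    rw [(rho_one_iff hE hp Δ ⟨z, hzR⟩).2 (Or.inl D.phz)]; rfl⟩
  have haS0 : a ∈ S0 := by
    rw [hS0def]
    refine Subgroup.subset_closure ⟨(hS1mem ⟨a, haR⟩).2 ⟨1, one_mem _, by
      rw [(rho_one_iff hE hp Δ ⟨a, haR⟩).2 (Or.inr ha)]; rfl⟩, ?_, ka⟩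
    rw [← map_mul, haa, map_one]
  have hlift : ∀ g ∈ TT w, Fi22.pr g * Fi22.pr g = (1 : Cfsg.PSU 6 F 2) →
      ∃ y : RC φ E p, rho φ Δ y = Fi22.pr g ∧ (y : H) ∈ S0 := by
    intro g hg hgg
    obtain ⟨x', hx'⟩ := D'.surj (Fi22.pr g)
    have h1 := (hK2 x' (by rw [hx']; exact hgg)).1
    have key : ∀ x', φ' x' = Fi22.pr g → K' x' → ∃ y : RC φ E p, rho φ Δ y = Fi22.pr g ∧ (y : H) ∈ S0 := by
      intro x' hx' kx'
      obtain ⟨y, rfl, ky⟩ := (hK' _).1 kx'
      rw [hφ'] at hx'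
      refine ⟨y, hx', ?_⟩
      obtain ⟨E1, h2, hp2, h3⟩ := hsqE y (by rw [hφ', hx']; exact hgg)
      rw [hS0def]
      refine Subgroup.subset_closure ⟨(hS1mem y).2 ⟨g, hg, hx'.symm⟩, ?_, ky⟩
      rw [← map_mul, sq_AA D hE h2 h3, map_one]
    rcases h1 with h1 | h1
    · exact key x' hx' h1
    · exact key (x' * z') (by rw [map_mul, hx', D'.phz, mul_one]) h1
  have hall1 : ∀ s ∈ S1, s ∈ S0 ∨ s * z ∈ S0 := by
    intro s hs
    obtain ⟨g, hg, hgs⟩ := (hS1mem ⟨s, hS1R hs⟩).1 hs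
    obtain ⟨g1, hg1, g2, hg2, q, hq, hgq⟩ := TT_fact hF h hg
    have hsqQ : ∀ {w v : Fin 3 → Fin 6 → F}, HB w v → ∀ {q : Cfsg.SU 6 F 2}, q ∈ QW w →
        Fi22.pr q * Fi22.pr q = (1 : Cfsg.PSU 6 F 2) := by
      intro w v h q hq
      show Fi22.pr (q * q) = 1
      rw [QW_sq hF h hq]
      rfl
    obtain ⟨y1, e1, m1⟩ := hlift g1 (E1_le_TT hF h hg1) (hsqQ (HB_swap1 hF h) hg1.1)
    obtain ⟨y2, e2, m2⟩ := hlift g2 (E2_le_TT hF h hg2) (hsqQ (HB_swap2 hF h) hg2.1)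
    obtain ⟨y3, e3, m3⟩ := hlift q (QW_le_TT w hq) (hsqQ h hq)
    have hY : ((y1 * y2 * y3 : RC φ E p) : H) ∈ S0 := by
      rw [Subgroup.coe_mul, Subgroup.coe_mul]
      exact mul_mem (mul_mem m1 m2) m3
    have h1 : rho φ Δ ((y1 * y2 * y3)⁻¹ * ⟨s, hS1R hs⟩) = 1 := by
      rw [map_mul, map_inv, map_mul, map_mul, e1, e2, e3, ← hgs, hgq]
      show (Fi22.pr g1 * Fi22.pr g2 * Fi22.pr q)⁻¹ * (Fi22.pr g1 * Fi22.pr g2 * Fi22.pr q) = 1
      rw [inv_mul_cancel]
    have hsY : s = ((y1 * y2 * y3 : RC φ E p) : H) * (((y1 * y2 * y3)⁻¹ * ⟨s, hS1R hs⟩ : RC φ E p) : H) := by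
      rw [Subgroup.coe_mul (RC φ E p) (y1 * y2 * y3)⁻¹, Subgroup.coe_inv, mul_inv_cancel_left]
    generalize ((y1 * y2 * y3)⁻¹ * ⟨s, hS1R hs⟩ : RC φ E p) = k at h1 hsY
    generalize ((y1 * y2 * y3 : RC φ E p) : H) = Y at hY hsY
    rcases (rho_one_iff hE hp Δ k).1 h1 with h2 | h2
    · rcases D.ker _ h2 with h3 | h3
      · left; rw [hsY, h3, mul_one]; exact hY
      · right; rw [hsY, h3, mul_assoc, D.sq, mul_one]; exact hY
    · replace h2 := h2.trans ha.symm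
      rcases ker_cases D h2 with h3 | h3
      · left; rw [hsY, h3]; exact mul_mem hY haS0
      · right
        rw [hsY, h3]
        have : Y * (a * z) * z = Y * a := by rw [mul_assoc, mul_assoc a, D.sq, mul_one]
        rw [this]
        exact mul_mem hY haS0
  have hcS0 : Nat.card S1 = 2 * Nat.card S0 := by
    have h1 : (S0.subgroupOf S1).index = 2 := by
      rw [Subgroup.index_eq_two_iff]
      refine ⟨⟨z, hzS1⟩, fun b => ?_⟩
      rw [Subgroup.mem_subgroupOf, Subgroup.mem_subgroupOf]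
      show Xor ((b : H) * z ∈ S0) ((b : H) ∈ S0)
      rcases hall1 b b.2 with h2 | h2
      · right
        refine ⟨h2, fun h3 => hz0 ?_⟩
        have := mul_mem (inv_mem h2) h3
        rwa [inv_mul_cancel_left] at this
      · left
        refine ⟨h2, fun h3 => hz0 ?_⟩
        have := mul_mem (inv_mem h3) h2
        rwa [inv_mul_cancel_left] at this
    have h2 := (S0.subgroupOf S1).card_mul_index
    rw [h1, Nat.card_congr (Subgroup.subgroupOfEquivOfLe hS01).toEquiv] at h2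
    omega
  have hcT0 : Nat.card (T : Subgroup H) = 4 * Nat.card S0 := by
    rw [hcT]
    rw [hcS1] at hcS0
    omega
  exact not_perfect_of_normal D.cen D.sq (hT hzS1) hS0n (comm_of_card (hS01.trans hT) hS0n hcT0) hz0 hTodd

end good

end Cfsg.Agent.FTh
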