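import Cfsg.Agent.UTh.Fus

/-!
# Fusion in a self-centralising elementary abelian subgroup of the centraliser of an involution
-/

set_option autoImplicit false
set_option linter.unusedSectionVars false
set_option linter.unusedSimpArgs false

namespace Cfsg.Agent.FTh

open Cfsg.Agent.UTh

variable {G : Type*} [Group G] [Finite G] {d : G} {n : ℕ}

/-- the centraliser -/
abbrev CC (d : G) : Type _ := ↥(Subgroup.centralizer ({d} : Set G))

/-- A conjugacy class of elementary abelian subgroups of the centraliser of `d` containing all those of order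
`2 ^ n` and covering all involutions. -/
structure Sys (d : G) (n : ℕ) (𝒜 : Set (Subgroup (CC d))) : Prop where
  ne : d ≠ 1
  sq : ∀ A ∈ 𝒜, ∀ x ∈ A, x * x = 1
  card : ∀ A ∈ 𝒜, Nat.card A = 2 ^ n
  z : ∀ A ∈ 𝒜, zC d ∈ A
  full : ∀ B : Subgroup (CC d), (∀ x ∈ B, x * x = 1) → Nat.card B = 2 ^ n → B ∈ 𝒜
  conj : ∀ A ∈ 𝒜, ∀ B ∈ 𝒜, ∃ s, ∀ x ∈ A, s * x * s⁻¹ ∈ B
  ex : ∀ y : CC d, y * y = 1 → ∃ A ∈ 𝒜, y ∈ A
  nsq : ∀ y : CC d, y * y ≠ zC d
  big : ∃ y : CC d, (∃ k, y ^ 2 ^ k = 1) ∧ y * y ≠ 1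

/-- the subgroup of `G` -/
def up (A : Subgroup (CC d)) : Subgroup G := A.map (Subgroup.centralizer ({d} : Set G)).subtype

theorem mem_up {A : Subgroup (CC d)} {x : G} : x ∈ up A ↔ ∃ y ∈ A, (y : G) = x := Iff.rfl

theorem comm_of_sq {H : Type*} [Group H] {A : Subgroup H} (h : ∀ x ∈ A, x * x = 1) {x y : H} (hx : x ∈ A)
    (hy : y ∈ A) : x * y = y * x := by
  have h1 := h _ (mul_mem hx hy)
  have h2 := inv_eq_of_mul_eq_one_left h1
  rw [mul_inv_rev, inv_eq_of_mul_eq_one_left (h x hx), inv_eq_of_mul_eq_one_left (h y hy)] at h2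
  exact h2.symm

section

variable {𝒜 : Set (Subgroup (CC d))} (S : Sys d n 𝒜) {A : Subgroup (CC d)} (hA : A ∈ 𝒜)

include S hA

theorem up_sq {x : G} (hx : x ∈ up A) : x * x = 1 := by
  obtain ⟨x, hx, rfl⟩ := hx
  exact congrArg Subtype.val (S.sq A hA x hx)

theorem up_comm {x y : G} (hx : x ∈ up A) (hy : y ∈ up A) : x * y = y * x :=
  comm_of_sq (fun _ h => up_sq S hA h) hx hy

theorem card_up : Nat.card (up A) = 2 ^ n := by
  rw [up, ← S.card A hA]
  exact Nat.card_congr (A.equivMapOfInjective _ (Subgroup.subtype_injective _)).toEquiv.symm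

theorem d_mem_up : d ∈ up A := ⟨zC d, S.z A hA, rfl⟩

/-- the normaliser is transitive on the conjugates of `d` in `A` -/
theorem trans_up {x : G} (hx : x ∈ up A) (hdx : IsConj d x) :
    ∃ n ∈ Subgroup.normalizer (up A : Set G), n * d * n⁻¹ = x := by
  obtain ⟨g, hg⟩ := isConj_iff.1 hdx
  -- the subgroup of `C` of elements conjugated into `A` by `g`
  let B : Subgroup (CC d) :=
    ((up A).comap (MulAut.conj g).toMonoidHom).comap (Subgroup.centralizer ({d} : Set G)).subtype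
  have hB : ∀ y, y ∈ B ↔ g * (y : G) * g⁻¹ ∈ up A := fun _ => Iff.rfl
  have hback : ∀ a ∈ up A, g⁻¹ * a * g ∈ Subgroup.centralizer ({d} : Set G) := by
    intro a ha
    rw [Subgroup.mem_centralizer_iff]
    intro y hy
    rw [Set.mem_singleton_iff.1 hy]
    have h1 := up_comm S hA hx ha
    rw [← hg] at h1
    calc d * (g⁻¹ * a * g) = g⁻¹ * ((g * d * g⁻¹) * a) * g := by group
      _ = g⁻¹ * (a * (g * d * g⁻¹)) * g := by rw [h1]
      _ = g⁻¹ * a * g * d := by group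
  have hcard : Nat.card B = 2 ^ n := by
    rw [← card_up S hA]
    refine Nat.card_congr ⟨fun y => ⟨g * (y : CC d) * g⁻¹, y.2⟩,
      fun a => ⟨⟨g⁻¹ * a * g, hback a a.2⟩, ?_⟩, ?_, ?_⟩
    · rw [hB]
      show g * (g⁻¹ * a * g) * g⁻¹ ∈ up A
      have : g * (g⁻¹ * a * g) * g⁻¹ = a := by group
      rw [this]; exact a.2
    · intro y
      apply Subtype.ext
      apply Subtype.ext
      show g⁻¹ * (g * (y : CC d) * g⁻¹) * g = _
      group
    · intro a
      apply Subtype.ext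
      show g * (g⁻¹ * a * g) * g⁻¹ = (a : G)
      group
  have hsq : ∀ b ∈ B, b * b = 1 := by
    intro b hb
    have h1 := up_sq S hA ((hB b).1 hb)
    apply Subtype.ext
    have h2 : g * (b : G) * g⁻¹ * (g * b * g⁻¹) = g * (b * b) * g⁻¹ := by group
    rw [h2] at h1
    have h3 : (b : G) * b = g⁻¹ * (g * (b * b) * g⁻¹) * g := by group
    show (b : G) * b = 1
    rw [h3, h1]
    group
  obtain ⟨s, hs⟩ := S.conj A hA B (S.full B hsq hcard)
  refine ⟨g * s, conj_bij ?_, ?_⟩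
  · rintro _ ⟨a, ha, rfl⟩
    have h1 := hs a ha
    rw [hB] at h1
    have h2 : g * (s : G) * a * (g * s)⁻¹ = g * ((s * a * s⁻¹ : CC d) : G) * g⁻¹ := by
      rw [Subgroup.coe_mul, Subgroup.coe_mul, Subgroup.coe_inv]
      group
    show g * (s : G) * a * (g * s)⁻¹ ∈ up A
    rw [h2]
    exact h1
  · have h1 : (s : G) * d = d * s := (Subgroup.mem_centralizer_iff.1 s.2 d rfl).symm
    calc g * (s : G) * d * (g * s)⁻¹ = g * (s * d) * (s : G)⁻¹ * g⁻¹ := by group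
      _ = g * (d * s) * (s : G)⁻¹ * g⁻¹ := by rw [h1]
      _ = g * d * g⁻¹ := by group
      _ = x := hg

omit S hA in
theorem isConj_conj' {x : G} (y : G) (hx : IsConj d x) : IsConj d (y * x * y⁻¹) :=
  hx.trans (isConj_iff.2 ⟨y, rfl⟩)

/-! ### Subgroup arguments -/

theorem sub_a' (hall : ∀ x ∈ up A, IsConj d x ∨ IsConj d (x * d)) {x y : G} (hx : x ∈ up A) (hy : y ∈ up A)
    (hnx : ¬ IsConj d x) (hny : ¬ IsConj d y) : ¬ IsConj d (x * y) := by
  intro hxy
  obtain ⟨n, hn, hnd⟩ := trans_up S hA (mul_mem hx hy) hxy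
  have h1 := inv_conj_mem hn hx
  rcases hall _ h1 with h2 | h2
  · apply hnx
    have := isConj_conj' n h2
    have e : n * (n⁻¹ * x * n) * n⁻¹ = x := by group
    rwa [e] at this
  · apply hny
    have := isConj_conj' n h2
    have e : n * (n⁻¹ * x * n * d) * n⁻¹ = x * (n * d * n⁻¹) := by group
    rw [e, hnd, ← mul_assoc, up_sq S hA hx, one_mul] at this
    exact this

theorem sub_b' (hall : ∀ x ∈ up A, x ≠ d → IsConj d x → IsConj d (x * d)) {x y : G} (hx : x ∈ up A)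
    (hy : y ∈ up A) (hdx : IsConj d x) (hdy : IsConj d y) (hne : x ≠ y) : IsConj d (x * y) := by
  obtain ⟨n, hn, hnd⟩ := trans_up S hA hy hdy
  have h1 := inv_conj_mem hn hx
  have h2 : IsConj d (n⁻¹ * x * n) := by
    have := isConj_conj' n⁻¹ hdx
    rwa [inv_inv] at this
  have h3 : n⁻¹ * x * n ≠ d := by
    intro h4
    apply hne
    rw [← hnd, ← h4]
    group
  have h4 := isConj_conj' n (hall _ h1 h3 h2)
  have e : n * (n⁻¹ * x * n * d) * n⁻¹ = x * (n * d * n⁻¹) := by group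
  rwa [e, hnd] at h4

end

/-- the number of conjugates of `d` in `A` -/
noncomputable def mu (A : Subgroup (CC d)) : ℕ := Set.ncard {x : G | x ∈ up A ∧ IsConj d x}

theorem ncard_up_eq (A : Subgroup (CC d)) : mu A = Set.ncard {x : CC d | x ∈ A ∧ IsConj d (x : G)} := by
  have h1 : {x : G | x ∈ up A ∧ IsConj d x} =
      Subtype.val '' {x : CC d | x ∈ A ∧ IsConj d (x : G)} := by
    ext x
    constructor
    · rintro ⟨⟨y, hy, rfl⟩, hx⟩
      exact ⟨y, ⟨hy, hx⟩, rfl⟩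
    · rintro ⟨y, ⟨hy, hx⟩, rfl⟩
      exact ⟨⟨y, hy, rfl⟩, hx⟩
  rw [mu, h1, Set.ncard_image_of_injective _ Subtype.val_injective]

section

variable {𝒜 : Set (Subgroup (CC d))} (S : Sys d n 𝒜) {A : Subgroup (CC d)} (hA : A ∈ 𝒜)

include S hA

theorem dvd_of_sub_a' (hall : ∀ x ∈ up A, IsConj d x ∨ IsConj d (x * d)) : 2 ^ n - mu A ∣ 2 ^ n := by
  let A1 : Subgroup G :=
    { carrier := {x | x ∈ up A ∧ ¬ IsConj d x}
      mul_mem' := fun hx hy => ⟨mul_mem hx.1 hy.1, sub_a' S hA hall hx.1 hy.1 hx.2 hy.2⟩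
      one_mem' := ⟨one_mem _, fun h1 => S.ne (isConj_one_left.1 h1)⟩
      inv_mem' := by
        rintro x ⟨hx, hnx⟩
        refine ⟨inv_mem hx, ?_⟩
        rw [inv_eq_of_mul_eq_one_left (up_sq S hA hx)]
        exact hnx }
  have h1 : A1 ≤ up A := fun x hx => hx.1
  have h2 := Subgroup.card_dvd_of_le h1
  rw [card_up S hA] at h2
  have h3 : Nat.card A1 = 2 ^ n - mu A := by
    have h4 : Nat.card A1 = ((up A : Set G) \ {x : G | x ∈ up A ∧ IsConj d x}).ncard := by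
      show (A1 : Set G).ncard = _
      congr 1
      ext x
      constructor
      · rintro ⟨hx, hnx⟩
        exact ⟨hx, fun h5 => hnx h5.2⟩
      · rintro ⟨hx, hnx⟩
        exact ⟨hx, fun h5 => hnx ⟨hx, h5⟩⟩
    rw [h4, Set.ncard_sdiff (fun x hx => hx.1)]
    have h5 : (up A : Set G).ncard = 2 ^ n := card_up S hA
    rw [h5]
    rfl
  rwa [h3] at h2

theorem dvd_of_sub_b' (hall : ∀ x ∈ up A, x ≠ d → IsConj d x → IsConj d (x * d)) : mu A + 1 ∣ 2 ^ n := by
  let A1 : Subgroup G :=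
    { carrier := {x | x = 1 ∨ (x ∈ up A ∧ IsConj d x)}
      mul_mem' := by
        rintro x y (rfl | hx) (rfl | hy)
        · left; exact mul_one 1
        · right; rw [one_mul]; exact hy
        · right; rw [mul_one]; exact hx
        · by_cases hxy : x = y
          · left
            rw [hxy, up_sq S hA hy.1]
          · right
            exact ⟨mul_mem hx.1 hy.1, sub_b' S hA hall hx.1 hy.1 hx.2 hy.2 hxy⟩
      one_mem' := Or.inl rfl
      inv_mem' := by
        rintro x (rfl | hx)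
        · left; exact inv_one
        · right
          rw [inv_eq_of_mul_eq_one_left (up_sq S hA hx.1)]
          exact hx }
  have h1 : A1 ≤ up A := by
    rintro x (rfl | hx)
    · exact one_mem _
    · exact hx.1
  have h2 := Subgroup.card_dvd_of_le h1
  rw [card_up S hA] at h2
  have h3 : Nat.card A1 = mu A + 1 := by
    have h4 : (A1 : Set G) = insert 1 {x : G | x ∈ up A ∧ IsConj d x} := rfl
    show (A1 : Set G).ncard = _
    rw [h4, Set.ncard_insert_of_notMem]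
    · rfl
    · rintro ⟨-, h5⟩
      exact S.ne (isConj_one_left.1 h5)
  rwa [h3] at h2

theorem mem_iff_orbit (x : G) : x ∈ {x : G | x ∈ up A ∧ IsConj d x} ↔
    ∃ g ∈ Subgroup.normalizer (up A : Set G), g * d * g⁻¹ = x := by
  constructor
  · rintro ⟨hx, hdx⟩
    exact trans_up S hA hx hdx
  · rintro ⟨g, hg, rfl⟩
    exact ⟨conj_mem' hg (d_mem_up S hA), isConj_iff.2 ⟨g, rfl⟩⟩

theorem prime_dvd' {p : ℕ} (hp : p.Prime) (hp2 : p ≠ 2) (hpm : p ∣ mu A) : ∃ k, 1 ≤ k ∧ k ≤ n ∧ p ∣ 2 ^ k - 1 :=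
  prime_dvd_aux (card_up S hA) (d_mem_up S hA) (Δ := {x : G | x ∈ up A ∧ IsConj d x}) (mem_iff_orbit S hA) hp hp2 hpm

theorem no_prime' {p : ℕ} (hp : p.Prime) (hp2 : p ≠ 2) (h1 : ∀ k ∈ Finset.Icc 1 n, ¬ p ∣ 2 ^ k - 1) :
    ¬ p ∣ mu A := by
  intro h2
  obtain ⟨k, h3, h4, h5⟩ := prime_dvd' S hA hp hp2 h2
  exact h1 k (Finset.mem_Icc.2 ⟨h3, h4⟩) h5

/-- some conjugate different from `d` lies in `A` -/
theorem exists_ne' (hnwc : ∃ g : G, g * d * g⁻¹ ∈ Subgroup.centralizer ({d} : Set G) ∧ g * d * g⁻¹ ≠ d) :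
    ∃ x ∈ up A, x ≠ d ∧ IsConj d x := by
  obtain ⟨g, hg, hne⟩ := hnwc
  have hdd : d * d = 1 := congrArg Subtype.val (S.sq A hA _ (S.z A hA))
  obtain ⟨y, hy⟩ : ∃ y : CC d, y = ⟨g * d * g⁻¹, hg⟩ := ⟨_, rfl⟩
  have hyv : (y : G) = g * d * g⁻¹ := by rw [hy]
  have hyy : y * y = 1 := by
    apply Subtype.ext
    rw [Subgroup.coe_mul, hyv]
    calc g * d * g⁻¹ * (g * d * g⁻¹) = g * (d * d) * g⁻¹ := by group
      _ = 1 := by rw [hdd]; group
  obtain ⟨B, hB, hyB⟩ := S.ex y hyy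
  obtain ⟨s, hs⟩ := S.conj B hB A hA
  refine ⟨_, ⟨_, hs y hyB, rfl⟩, ?_, ?_⟩
  · intro h1
    apply hne
    have h2 : s * y * s⁻¹ = zC d := Subtype.ext h1
    have hc : zC d * s = s * zC d := Subtype.ext (Subgroup.mem_centralizer_iff.1 s.2 d rfl)
    have h3 : y = zC d := by
      calc y = s⁻¹ * (s * y * s⁻¹) * s := by group
        _ = s⁻¹ * (zC d * s) := by rw [h2, mul_assoc]
        _ = s⁻¹ * (s * zC d) := by rw [hc]
        _ = zC d := by group
    rw [← hyv]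
    exact congrArg Subtype.val h3
  · rw [map_mul, map_mul, map_inv]
    show IsConj d ((s : G) * (y : G) * (s : G)⁻¹)
    rw [hyv]
    exact isConj_conj' _ (isConj_iff.2 ⟨g, rfl⟩)

theorem two_le_mu (hnwc : ∃ g : G, g * d * g⁻¹ ∈ Subgroup.centralizer ({d} : Set G) ∧ g * d * g⁻¹ ≠ d) :
    2 ≤ mu A := by
  obtain ⟨x, hx, hne, hdx⟩ := exists_ne' S hA hnwc
  rw [mu]
  have h1 : ({d, x} : Set G) ⊆ {x : G | x ∈ up A ∧ IsConj d x} := by
    intro y hy
    rw [Set.mem_insert_iff, Set.mem_singleton_iff] at hy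
    rcases hy with rfl | rfl
    · exact ⟨d_mem_up S hA, IsConj.refl _⟩
    · exact ⟨hx, hdx⟩
  have h2 := Set.ncard_le_ncard h1
  rwa [Set.ncard_pair hne.symm] at h2

omit hA in
/-- `d` is not a square -/
theorem not_sq' (y : G) : y * y ≠ d := by
  intro hy
  have hyC : y ∈ Subgroup.centralizer ({d} : Set G) := by
    rw [Subgroup.mem_centralizer_iff]
    intro x hx
    rw [Set.mem_singleton_iff.1 hx, ← hy, mul_assoc]
  exact S.nsq ⟨y, hyC⟩ (Subtype.ext hy)

/-- not every involution of `A` is conjugate to `d` -/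
theorem not_all' : ∃ x ∈ up A, x ≠ 1 ∧ ¬ IsConj d x := by
  by_contra hcon
  push Not at hcon
  obtain ⟨y, ⟨k, hk'⟩, hyy⟩ := S.big
  -- the last nontrivial square
  obtain ⟨m, hm, hmm⟩ : ∃ m, y ^ 2 ^ m ≠ 1 ∧ y ^ 2 ^ (m + 1) = 1 := by
    by_contra hc3
    push Not at hc3
    have : ∀ m, y ^ 2 ^ m ≠ 1 := by
      intro m
      induction m with
      | zero =>
        rw [pow_zero, pow_one]
        rintro rfl
        exact hyy (mul_one 1)
      | succ m ih => exact hc3 m ih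
    exact this k hk'
  have hm0 : m ≠ 0 := by
    rintro rfl
    rw [zero_add, pow_one, sq] at hmm
    exact hyy hmm
  obtain ⟨l, rfl⟩ := Nat.exists_eq_succ_of_ne_zero hm0
  obtain ⟨t, ht⟩ : ∃ t, t = y ^ 2 ^ (l + 1) := ⟨_, rfl⟩
  obtain ⟨r, hr⟩ : ∃ r, r = y ^ 2 ^ l := ⟨_, rfl⟩
  have hrt : r * r = t := by rw [hr, ht, ← pow_two, ← pow_mul, ← pow_succ]
  have htt : t * t = 1 := by rw [ht, ← pow_two, ← pow_mul, ← pow_succ]; exact hmm
  -- `t` is conjugate to `d`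
  obtain ⟨B, hB, htB⟩ := S.ex t htt
  obtain ⟨s, hs⟩ := S.conj B hB A hA
  have h2 : IsConj d ((s * t * s⁻¹ : CC d) : G) := by
    refine hcon _ ⟨_, hs t htB, rfl⟩ ?_
    intro h3
    apply hm
    have h4 : s * t * s⁻¹ = 1 := Subtype.ext h3
    show y ^ 2 ^ (l + 1) = 1
    rw [← ht]
    calc t = s⁻¹ * (s * t * s⁻¹) * s := by group
      _ = 1 := by rw [h4]; group
  obtain ⟨g, hg⟩ := isConj_iff.1 h2
  apply not_sq' S (g⁻¹ * (s * r * s⁻¹ : CC d) * g)
  have h5 : ((s * t * s⁻¹ : CC d) : G) = (s * r * s⁻¹ : CC d) * (s * r * s⁻¹ : CC d) := by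
    rw [← hrt, ← Subgroup.coe_mul]
    congr 1
    group
  rw [h5] at hg
  calc g⁻¹ * ((s * r * s⁻¹ : CC d) : G) * g * (g⁻¹ * (s * r * s⁻¹ : CC d) * g) =
      g⁻¹ * (((s * r * s⁻¹ : CC d) : G) * (s * r * s⁻¹ : CC d)) * g := by group
    _ = g⁻¹ * (g * d * g⁻¹) * g := by rw [hg]
    _ = d := by group

theorem mu_le : mu A + 2 ≤ 2 ^ n := by
  obtain ⟨x, hx, hx1, hnx⟩ := not_all' S hA
  have h1 : {x : G | x ∈ up A ∧ IsConj d x} ⊆ (up A : Set G) \ {1, x} := by
    rintro y ⟨hy, hdy⟩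
    refine ⟨hy, ?_⟩
    rintro (rfl | rfl)
    · exact S.ne (isConj_one_left.1 hdy)
    · exact hnx hdy
  have h2 := Set.ncard_le_ncard h1
  have h6 : ({1, x} : Set G) ⊆ (up A : Set G) := by
    intro y hy
    rcases hy with rfl | rfl
    · exact one_mem _
    · exact hx
  have h5 : (up A : Set G).ncard = 2 ^ n := card_up S hA
  have h7 := Set.ncard_le_ncard h6
  rw [Set.ncard_sdiff h6, Set.ncard_pair hx1.symm, h5] at h2
  rw [h5, Set.ncard_pair hx1.symm] at h7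
  rw [mu]
  omega

end

end Cfsg.Agent.FTh
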