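import Cfsg.Agent.FTh.Small
import Cfsg.Agent.Fi22.Ord

/-!
# Transfer; the centraliser of a member as a cover
-/

set_option autoImplicit false
set_option linter.unusedSectionVars false
set_option linter.unusedSimpArgs false

namespace Cfsg.Agent.FTh

open Cfsg.Agent.ThreeTransp Cfsg.Agent.Fi22 Cfsg.Agent.FiF4 Cfsg.Agent.UDbl Cfsg.Agent.Uni Cfsg.Agent.UTh

section transfer

variable {H : Type*} [Group H] [Finite H] {z : H}

theorem not_perfect_of_normal (hz : ∀ x, z * x = x * z) (hzz : z * z = 1)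
    {T S0 : Subgroup H} (hzT : z ∈ T) (hn : ∀ t ∈ T, ∀ s ∈ S0, t * s * t⁻¹ ∈ S0)
    (hab : ∀ s ∈ T, ∀ t ∈ T, s * t * s⁻¹ * t⁻¹ ∈ S0) (hz0 : z ∉ S0) (hodd : Odd T.index) : commutator H ≠ ⊤ := by
  classical
  intro hperf
  have hnor : (S0.subgroupOf T).Normal := ⟨fun s hs t => hn t t.2 s hs⟩
  letI cA : CommGroup (T ⧸ S0.subgroupOf T) := { (inferInstance : Group (T ⧸ S0.subgroupOf T)) with
    mul_comm := by
      intro a b
      obtain ⟨a, rfl⟩ := QuotientGroup.mk_surjective a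
      obtain ⟨b, rfl⟩ := QuotientGroup.mk_surjective b
      rw [← QuotientGroup.mk_mul, ← QuotientGroup.mk_mul, QuotientGroup.eq, Subgroup.mem_subgroupOf]
      have h1 := hab (b : H)⁻¹ (inv_mem b.2) (a : H)⁻¹ (inv_mem a.2)
      rw [inv_inv, inv_inv] at h1
      have h2 : (((a * b)⁻¹ * (b * a) : T) : H) = (b : H)⁻¹ * (a : H)⁻¹ * b * a := by
        rw [Subgroup.coe_mul, Subgroup.coe_inv, Subgroup.coe_mul, Subgroup.coe_mul]
        group
      rw [h2]
      exact h1 }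
  let θ : T →* T ⧸ S0.subgroupOf T := QuotientGroup.mk' _
  haveI : T.FiniteIndex := inferInstance
  have hkey : ∀ (k : ℕ) (g₀ : H), g₀⁻¹ * z ^ k * g₀ ∈ T → g₀⁻¹ * z ^ k * g₀ = z ^ k := by
    intro k g₀ _
    have h1 : ∀ k : ℕ, z ^ k * g₀ = g₀ * z ^ k := by
      intro k
      induction k with
      | zero => simp
      | succ k ih => rw [pow_succ, mul_assoc, hz, ← mul_assoc, ih, mul_assoc]
    rw [mul_assoc, h1, inv_mul_cancel_left]
  have h1 := MonoidHom.transfer_eq_pow θ z hkey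
  have h2 : MonoidHom.transfer θ z = 1 := by
    have h3 : z ∈ (MonoidHom.transfer θ).ker := by
      have h4 : commutator H ≤ (MonoidHom.transfer θ).ker := Abelianization.commutator_subset_ker _
      rw [hperf] at h4
      exact h4 (Subgroup.mem_top z)
    exact h3
  have h5 : z ^ T.index = z := by
    obtain ⟨m, hm⟩ := hodd
    rw [hm, pow_succ, pow_mul, sq, hzz, one_pow, one_mul]
  rw [h2] at h1
  have h6 : (⟨z ^ T.index, MonoidHom.transfer_eq_pow_aux z hkey⟩ : T) ∈ S0.subgroupOf T :=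
    (QuotientGroup.eq_one_iff _).1 h1.symm
  rw [Subgroup.mem_subgroupOf] at h6
  apply hz0
  rw [← h5]
  exact h6

theorem comm_of_card {T S0 : Subgroup H} (hS0 : S0 ≤ T) (hn : ∀ t ∈ T, ∀ s ∈ S0, t * s * t⁻¹ ∈ S0)
    (hc : Nat.card T = 4 * Nat.card S0) : ∀ s ∈ T, ∀ t ∈ T, s * t * s⁻¹ * t⁻¹ ∈ S0 := by
  have hnor : (S0.subgroupOf T).Normal := ⟨fun s hs t => hn t t.2 s hs⟩
  haveI : Fact (Nat.Prime 2) := ⟨Nat.prime_two⟩
  have h1 : Nat.card (T ⧸ S0.subgroupOf T) = 2 ^ 2 := by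
    have h2 := Subgroup.card_eq_card_quotient_mul_card_subgroup (S0.subgroupOf T)
    rw [Nat.card_congr (Subgroup.subgroupOfEquivOfLe hS0).toEquiv, hc] at h2
    have h3 : 0 < Nat.card S0 := Nat.card_pos
    have h4 := Nat.eq_of_mul_eq_mul_right h3 h2
    rw [← h4]
    norm_num
  have h2 := (IsPGroup.isMulCommutative_of_card_eq_prime_sq h1).is_comm.comm
  intro s hs t ht
  have h3 := h2 (QuotientGroup.mk (⟨s, hs⟩ : T)⁻¹) (QuotientGroup.mk (⟨t, ht⟩ : T)⁻¹)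
  rw [← QuotientGroup.mk_mul, ← QuotientGroup.mk_mul, eq_comm, QuotientGroup.eq, Subgroup.mem_subgroupOf] at h3
  have h4 : ((((⟨t, ht⟩ : T)⁻¹ * (⟨s, hs⟩ : T)⁻¹)⁻¹ * ((⟨s, hs⟩ : T)⁻¹ * (⟨t, ht⟩ : T)⁻¹) : T) : H) =
      s * t * s⁻¹ * t⁻¹ := by
    rw [Subgroup.coe_mul, Subgroup.coe_inv, Subgroup.coe_mul, Subgroup.coe_mul, Subgroup.coe_inv, Subgroup.coe_inv]
    show (t⁻¹ * s⁻¹)⁻¹ * (s⁻¹ * t⁻¹) = _
    group
  rwa [h4] at h3

/-- a normal subgroup of index two, if the cover of a perfect group is not perfect -/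
theorem index_two_of_not_perfect {P : Type*} [Group P] {φ : H →* P} (hsurj : Function.Surjective φ)
    (hker : ∀ h, φ h = 1 → h = 1 ∨ h = z) (hzz : z * z = 1) (hP : commutator P = ⊤) (hH : commutator H ≠ ⊤) :
    z ∉ commutator H ∧ ∀ x, x ∈ commutator H ∨ x * z ∈ commutator H := by
  have h1 : ∀ x, x ∈ commutator H ∨ x * z ∈ commutator H := by
    intro x
    have h2 : φ x ∈ (commutator H).map φ := by
      rw [commutator_def, Subgroup.map_commutator, Subgroup.map_top_of_surjective _ hsurj, ← commutator_def, hP]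
      trivial
    obtain ⟨l, hl, hlx⟩ := h2
    rcases hker (l⁻¹ * x) (by rw [map_mul, map_inv, hlx, inv_mul_cancel]) with h3 | h3
    · left
      have : l = x := inv_mul_eq_one.1 h3
      rw [← this]; exact hl
    · right
      have h4 : x = l * z := by rw [← h3, mul_inv_cancel_left]
      rw [h4, mul_assoc, hzz, mul_one]
      exact hl
  refine ⟨fun h2 => hH ?_, h1⟩
  rw [eq_top_iff]
  intro x _
  rcases h1 x with h3 | h3
  · exact h3
  · have := mul_mem h3 (inv_mem h2)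
    rwa [mul_inv_cancel_right] at this

end transfer

section cov

variable {H P : Type*} [Group H] [Group P] [Finite H] [Finite P] {z : H} {φ : H →* P} {E : Set P}

/-- the elements over the centraliser of a member -/
def RC (φ : H →* P) (E : Set P) (p : P) : Subgroup H := (Subgroup.closure (perp E p)).comap φ

theorem mem_RC {p : P} {x : H} : x ∈ RC φ E p ↔ φ x ∈ Subgroup.closure (perp E p) := Iff.rfl

theorem commute_closure_perp {p t : P} (ht : t ∈ Subgroup.closure (perp E p)) : Commute p t := by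
  induction ht using Subgroup.closure_induction with
  | mem x hx => exact hx.2.2
  | one => exact Commute.one_right p
  | mul x y _ _ hx hy => exact hx.mul_right hy
  | inv x _ hx => exact hx.inv_right

theorem mem_RC_iff (hE : H22 E) {p : P} (hp : p ∈ E) {x : H} : x ∈ RC φ E p ↔ Commute p (φ x) :=
  ⟨fun h => commute_closure_perp h, fun h => (core22 hE).cent p hp _ h⟩

variable {p : P} {F : Type} [Field F] [Fintype F]

/-- the map to the unitary group -/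
noncomputable def rho (φ : H →* P) (Δ : Dict E p F) : RC φ E p →* Cfsg.PSU 6 F 2 :=
  Δ.ψ.comp (φ.subgroupComap (Subgroup.closure (perp E p)))

theorem rho_apply (Δ : Dict E p F) (x : RC φ E p) : rho φ Δ x = Δ.ψ ⟨φ x, x.2⟩ := rfl

theorem rho_surj (D : DC φ z) (Δ : Dict E p F) : Function.Surjective (rho φ Δ) := by
  intro y
  obtain ⟨⟨t, ht⟩, rfl⟩ := Δ.surj y
  obtain ⟨x, rfl⟩ := D.surj t
  exact ⟨⟨x, ht⟩, rfl⟩

theorem psi_one_iff (hE : H22 E) (hp : p ∈ E) (Δ : Dict E p F) {t : P} (ht : t ∈ Subgroup.closure (perp E p)) :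
    Δ.ψ ⟨t, ht⟩ = 1 ↔ t = 1 ∨ t = p := by
  rw [← MonoidHom.mem_ker, Δ.ker, Dict.mem_center_iff']
  constructor
  · intro h
    exact hE.centralizer_perp hp h
  · rintro (rfl | rfl) y hy
    · exact Commute.one_right y
    · exact hy.2.2.symm

theorem rho_one_iff (hE : H22 E) (hp : p ∈ E) (Δ : Dict E p F) (x : RC φ E p) :
    rho φ Δ x = 1 ↔ φ x = 1 ∨ φ x = p := psi_one_iff hE hp Δ x.2

/-- the maximal commuting set of a maximal totally isotropic subspace -/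
theorem plane (hE : H22 E) (hp : p ∈ E) (Δ : Dict E p F) {w v : Fin 3 → Fin 6 → F} (h : HB w v) :
    ∃ E1, Max E E1 ∧ p ∈ E1 ∧ ∀ t (ht : t ∈ Subgroup.closure (perp E p)),
      (∃ g ∈ QW w, Fi22.pr g = Δ.ψ ⟨t, ht⟩) → t ∈ Subgroup.closure E1 := by
  have hF := Δ.hF
  obtain ⟨S, hS⟩ : ∃ S : Set P, S = {x | x = p ∨ ∃ u, u ≠ 0 ∧ (∀ i, hermForm 6 F 2 u (w i) = 0) ∧ x = Δ.pt u} :=
    ⟨_, rfl⟩
  have hSE : ∀ x ∈ S, x ∈ E := by
    rw [hS]
    rintro x (rfl | ⟨u, hu0, hu, rfl⟩)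
    · exact hp
    · exact (Δ.pt_mem hu0 (mem_plane hF h hu hu)).1
  have hSc : ∀ x ∈ S, ∀ y ∈ S, Commute x y := by
    rw [hS]
    rintro x (rfl | ⟨u, hu0, hu, rfl⟩) y (rfl | ⟨u', hu0', hu', rfl⟩)
    · exact Commute.refl _
    · exact (Δ.pt_mem hu0' (mem_plane hF h hu' hu')).2.2
    · exact (Δ.pt_mem hu0 (mem_plane hF h hu hu)).2.2.symm
    · exact (Δ.commute_pt hu0 (mem_plane hF h hu hu) hu0' (mem_plane hF h hu' hu')).2 (mem_plane hF h hu hu')
  obtain ⟨E1, h1, hSE1⟩ := exists_max_of_comm hE.cls hSE hSc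
  have hpS : p ∈ S := by rw [hS]; exact Or.inl rfl
  refine ⟨E1, h1, hSE1 hpS, ?_⟩
  rintro t ht ⟨g, hg, hgt⟩
  obtain ⟨L, hL, hgL⟩ : ∃ L : List (Fin 6 → F), (∀ u ∈ L, u ≠ 0 ∧ ∀ i, hermForm 6 F 2 u (w i) = 0) ∧
      g = (L.map tv).prod := by
    rcases QW_types hF h hg with rfl | ⟨u, hu0, hu, rfl⟩ | ⟨u, hu, huw, rfl⟩ | ⟨u, hu, huw, rfl⟩
    · exact ⟨[], by simp, by simp⟩
    · exact ⟨[u], by simpa using ⟨hu0, hu⟩, by simp⟩
    · refine ⟨[u 0, u 1], ?_, by simp⟩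
      intro x hx
      simp only [List.mem_cons, List.not_mem_nil, or_false] at hx
      rcases hx with rfl | rfl
      · exact ⟨hu.1.ne_zero _, huw _⟩
      · exact ⟨hu.1.ne_zero _, huw _⟩
    · refine ⟨[u 0, u 1, u 2], ?_, by simp [mul_assoc]⟩
      intro x hx
      simp only [List.mem_cons, List.not_mem_nil, or_false] at hx
      rcases hx with rfl | rfl | rfl
      · exact ⟨hu.1.ne_zero _, huw _⟩
      · exact ⟨hu.1.ne_zero _, huw _⟩
      · exact ⟨hu.1.ne_zero _, huw _⟩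
  have hL0 : ∀ u ∈ L, u ≠ 0 ∧ hermForm 6 F 2 u u = 0 :=
    fun u hu => ⟨(hL u hu).1, mem_plane hF h (hL u hu).2 (hL u hu).2⟩
  have hPm := Δ.list_mem hL0
  have hPE : (L.map Δ.pt).prod ∈ Subgroup.closure E1 := by
    apply Subgroup.list_prod_mem
    intro x hx
    obtain ⟨u, hu, rfl⟩ := List.mem_map.1 hx
    apply Subgroup.subset_closure
    apply hSE1
    rw [hS]
    exact Or.inr ⟨u, (hL u hu).1, (hL u hu).2, rfl⟩
  have h2 : Δ.ψ ⟨(L.map Δ.pt).prod⁻¹ * t, mul_mem (inv_mem hPm) ht⟩ = 1 := by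
    have e : (⟨(L.map Δ.pt).prod⁻¹ * t, mul_mem (inv_mem hPm) ht⟩ : ↥(Subgroup.closure (perp E p))) =
        ⟨(L.map Δ.pt).prod, hPm⟩⁻¹ * ⟨t, ht⟩ := rfl
    rw [e, map_mul, map_inv, ← hgt, hgL, Δ.map_list hL0, inv_mul_cancel]
  have e2 : t = (L.map Δ.pt).prod * ((L.map Δ.pt).prod⁻¹ * t) := by rw [mul_inv_cancel_left]
  rw [e2]
  apply mul_mem hPE
  rcases (psi_one_iff hE hp Δ _).1 h2 with h3 | h3
  · rw [h3]; exact one_mem _
  · rw [h3]; exact Subgroup.subset_closure (hSE1 hpS)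

end cov

end Cfsg.Agent.FTh
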